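import Cfsg.Agent.H955.FSSymp
import Cfsg.Agent.H955.FSBase

/-!
# Frobenius-Schur indicators: the symplectic groups in characteristic two (S4940)
-/

set_option autoImplicit false

universe u

namespace Cfsg.Agent.H956.FSFinal

open Cfsg Cfsg.Agent.H955.FS

/-- S4940 from `T2` -/
theorem s4940_of (h : ∀ n, T2.{u} n) (F : Type u) [Field F] [Fintype F] [CharP F 2] (n : ℕ)
    (χ : Cfsg.IrrCharacter ↥(Matrix.symplecticGroup (Fin n) F)) :
    ∑ᶠ g : ↥(Matrix.symplecticGroup (Fin n) F), (χ : ↥(Matrix.symplecticGroup (Fin n) F) → ℂ) (g * g) =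
      (Nat.card ↥(Matrix.symplecticGroup (Fin n) F) : ℂ) := by
  have h1 := symplectic_of_T2_of (fun f hf h => h.of_surjective f hf) h (F := F) n χ.1 χ.2
  rcases h1 with h1 | ⟨h1, -⟩
  · have : Finite (Matrix.symplecticGroup (Fin n) F) := Subtype.finite
    have hc : (Nat.card ↥(Matrix.symplecticGroup (Fin n) F) : ℂ) ≠ 0 :=
      Nat.cast_ne_zero.2 Nat.card_pos.ne'
    unfold fsi at h1
    rw [inv_mul_eq_iff_eq_mul₀ hc, mul_one] at h1
    exact h1
  · exact h1.elim

end Cfsg.Agent.H956.FSFinal
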