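import Mathlib
import Cfsg.Prelude.Def_Classical
import Cfsg.Agent.H100.NormRank

/-!
# The monomial subgroup of `SL_4` with entries fourth roots of unity

`W`: the monomial matrices of determinant 1 with entries fourth roots of unity (order 1536), `E ≤ W` the
subgroup of order 64 of `SL_4` consisting of (scalars)·(signs)·(four-group); modulo scalars `E` is elementary abelian and
normalised by `W`.  Abstract conclusion `lower_of_hom`: for an embedding `f : G → SL_4(F)` with `W ≤ range f` and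
`|G / Z(G)|` of 2-part `2 ^ 7`, the Sylow 2-subgroups of `G / Z(G)` have a normal elementary abelian subgroup of order 16.
-/

set_option autoImplicit false

namespace Cfsg.Agent.H956.MonoFour

open Matrix Equiv
open Cfsg.Agent.H100.NormRank

variable {F : Type*} [Field F]

/-- monomial matrices -/
def mon (σ : Perm (Fin 4)) (a : Fin 4 → F) : Matrix (Fin 4) (Fin 4) F := Matrix.of fun i j => if i = σ j then a j else 0

theorem mon_apply (σ : Perm (Fin 4)) (a : Fin 4 → F) (i j : Fin 4) : mon σ a i j = if i = σ j then a j else 0 := rfl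

theorem mon_mul (σ τ : Perm (Fin 4)) (a b : Fin 4 → F) : mon σ a * mon τ b = mon (σ * τ) (fun j => a (τ j) * b j) := by
  ext i j
  rw [Matrix.mul_apply, mon_apply, Finset.sum_eq_single (τ j)]
  · rw [mon_apply, mon_apply, if_pos rfl, ite_mul, zero_mul]
    rfl
  · intro k _ hk
    rw [mon_apply τ, if_neg hk, mul_zero]
  · intro h
    exact absurd (Finset.mem_univ _) h

theorem mon_one (c : F) : mon 1 (fun _ => c) = c • (1 : Matrix (Fin 4) (Fin 4) F) := by
  ext i j
  rw [mon_apply, Matrix.smul_apply, Matrix.one_apply]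
  by_cases h : i = j
  · rw [if_pos h, if_pos (by rw [h]; rfl), smul_eq_mul, mul_one]
  · rw [if_neg h, if_neg (by rw [Perm.one_apply]; exact h), smul_zero]

theorem mon_inj {σ τ : Perm (Fin 4)} {a b : Fin 4 → F} (ha : ∀ j, a j ≠ 0) (h : mon σ a = mon τ b) : σ = τ ∧ a = b := by
  have h1 : ∀ j, σ j = τ j ∧ a j = b j := by
    intro j
    have h2 := congrFun (congrFun h (σ j)) j
    rw [mon_apply, mon_apply, if_pos rfl] at h2
    by_cases h3 : σ j = τ j
    · rw [if_pos h3] at h2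
      exact ⟨h3, h2⟩
    · rw [if_neg h3] at h2
      exact absurd h2 (ha j)
  exact ⟨Equiv.ext fun j => (h1 j).1, funext fun j => (h1 j).2⟩

theorem mon_eq (σ : Perm (Fin 4)) (a : Fin 4 → F) : mon σ a = (σ⁻¹).permMatrix F * Matrix.diagonal a := by
  ext i j
  rw [Matrix.mul_diagonal, mon_apply, Equiv.Perm.permMatrix, PEquiv.toMatrix_apply]
  simp only [Equiv.toPEquiv_apply, Option.mem_def, Option.some.injEq]
  by_cases h : i = σ j
  · rw [if_pos h, if_pos (by rw [h]; simp), one_mul]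
  · rw [if_neg h, if_neg (by
      intro h1
      apply h
      rw [← h1]
      simp), zero_mul]

theorem det_mon (σ : Perm (Fin 4)) (a : Fin 4 → F) : (mon σ a).det = ((Perm.sign σ : ℤ) : F) * ∏ j, a j := by
  rw [mon_eq, Matrix.det_mul, Matrix.det_diagonal, Matrix.det_permutation, Perm.sign_inv]

/-! ## the four-group -/

/-- the members of the four-group -/
def IsV (σ : Perm (Fin 4)) : Prop := σ * σ = 1 ∧ (σ = 1 ∨ ∀ j, σ j ≠ j)

instance (σ : Perm (Fin 4)) : Decidable (IsV σ) := inferInstanceAs (Decidable (_ ∧ _))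

theorem isV_mul : ∀ σ τ : Perm (Fin 4), IsV σ → IsV τ → IsV (σ * τ) := by decide +kernel

theorem isV_comm : ∀ σ τ : Perm (Fin 4), IsV σ → IsV τ → σ * τ = τ * σ := by decide +kernel

theorem isV_sign : ∀ σ : Perm (Fin 4), IsV σ → Perm.sign σ = 1 := by decide +kernel

theorem isV_conj (σ τ : Perm (Fin 4)) (h : IsV τ) : IsV (σ * τ * σ⁻¹) := by
  obtain ⟨h1, h2⟩ := h
  refine ⟨?_, ?_⟩
  · calc σ * τ * σ⁻¹ * (σ * τ * σ⁻¹) = σ * (τ * τ) * σ⁻¹ := by group
      _ = 1 := by rw [h1]; group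
  · rcases h2 with rfl | h2
    · left; group
    · right
      intro j hj
      apply h2 (σ⁻¹ j)
      rw [Perm.mul_apply, Perm.mul_apply] at hj
      rw [Perm.eq_inv_iff_eq]
      exact hj

theorem isV_inv (σ : Perm (Fin 4)) (h : IsV σ) : IsV σ⁻¹ := by
  have : σ⁻¹ = σ := inv_eq_of_mul_eq_one_right h.1
  rwa [this]

theorem sgn_const : ∀ s : Fin 4 → ℤˣ, (∏ j, s j) = 1 → ∀ τ : Perm (Fin 4), IsV τ → ∀ j, s (τ j) * s j = s (τ 0) * s 0 := by
  decide +kernel

theorem exists_sep : ∀ σ : Perm (Fin 4), σ ≠ 1 → ∃ s : Fin 4 → ℤˣ, (∏ j, s j) = 1 ∧ ∃ j, s (σ j) ≠ s j := by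
  decide +kernel

theorem exists_V : ∀ j : Fin 4, ∃ τ : Perm (Fin 4), IsV τ ∧ τ 0 = j := by decide +kernel

/-! ## the groups -/

theorem ne_zero_of_pow {a : F} (h : a ^ 4 = 1) : a ≠ 0 := by
  rintro rfl
  rw [zero_pow (by norm_num)] at h
  exact zero_ne_one h

/-- the inverse of a monomial matrix -/
theorem mon_mul_inv (σ : Perm (Fin 4)) {a : Fin 4 → F} (ha : ∀ j, a j ≠ 0) :
    mon σ a * mon σ⁻¹ (fun j => (a (σ⁻¹ j))⁻¹) = 1 := by
  rw [mon_mul, mul_inv_cancel]
  have : (fun j => a (σ⁻¹ j) * (a (σ⁻¹ j))⁻¹) = fun _ => (1 : F) := by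
    ext j
    rw [mul_inv_cancel₀ (ha _)]
  rw [this, mon_one, one_smul]

/-- the monomial group -/
def W (F : Type*) [Field F] : Subgroup (Matrix.SpecialLinearGroup (Fin 4) F) where
  carrier := {g | ∃ (σ : Perm (Fin 4)) (a : Fin 4 → F), (∀ j, a j ^ 4 = 1) ∧
    (g : Matrix (Fin 4) (Fin 4) F) = mon σ a}
  one_mem' := ⟨1, fun _ => 1, fun _ => one_pow 4, by rw [mon_one, one_smul]; rfl⟩
  mul_mem' := by
    rintro g h ⟨σ, a, ha, hg⟩ ⟨τ, b, hb, hh⟩
    refine ⟨σ * τ, fun j => a (τ j) * b j, fun j => by rw [mul_pow, ha, hb, one_mul], ?_⟩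
    rw [Matrix.SpecialLinearGroup.coe_mul, hg, hh, mon_mul]
  inv_mem' := by
    rintro g ⟨σ, a, ha, hg⟩
    refine ⟨σ⁻¹, fun j => (a (σ⁻¹ j))⁻¹, fun j => by rw [inv_pow, ha, inv_one], ?_⟩
    have h1 := mon_mul_inv σ (fun j => ne_zero_of_pow (ha j))
    rw [← hg] at h1
    have h2 : (g : Matrix (Fin 4) (Fin 4) F) * ((g⁻¹ : Matrix.SpecialLinearGroup (Fin 4) F) : Matrix (Fin 4) (Fin 4) F) = 1 := by
      rw [← Matrix.SpecialLinearGroup.coe_mul, mul_inv_cancel]
      rfl
    have h3 : ((g⁻¹ : Matrix.SpecialLinearGroup (Fin 4) F) : Matrix (Fin 4) (Fin 4) F) * (g : Matrix (Fin 4) (Fin 4) F) = 1 := by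
      rw [← Matrix.SpecialLinearGroup.coe_mul, inv_mul_cancel]
      rfl
    calc ((g⁻¹ : Matrix.SpecialLinearGroup (Fin 4) F) : Matrix (Fin 4) (Fin 4) F)
        = ((g⁻¹ : Matrix.SpecialLinearGroup (Fin 4) F) : Matrix (Fin 4) (Fin 4) F) *
          ((g : Matrix (Fin 4) (Fin 4) F) * mon σ⁻¹ (fun j => (a (σ⁻¹ j))⁻¹)) := by rw [h1, Matrix.mul_one]
      _ = _ := by rw [← Matrix.mul_assoc, h3, Matrix.one_mul]

theorem mem_W {g : Matrix.SpecialLinearGroup (Fin 4) F} : g ∈ W F ↔ ∃ (σ : Perm (Fin 4)) (a : Fin 4 → F),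
    (∀ j, a j ^ 4 = 1) ∧ (g : Matrix (Fin 4) (Fin 4) F) = mon σ a := Iff.rfl

theorem sq_sq_eq {a b : F} (h : a ^ 2 = b ^ 2) (hb : b ≠ 0) : ∃ u : ℤˣ, a = b * ((u : ℤ) : F) := by
  rcases sq_eq_sq_iff_eq_or_eq_neg.1 h with h1 | h1
  · exact ⟨1, by rw [h1]; simp⟩
  · exact ⟨-1, by rw [h1]; simp⟩

/-- the subgroup with elementary abelian image -/
def E (F : Type*) [Field F] : Subgroup (Matrix.SpecialLinearGroup (Fin 4) F) where
  carrier := {g | ∃ (σ : Perm (Fin 4)) (a : Fin 4 → F), IsV σ ∧ (∀ j, a j ^ 4 = 1) ∧ (∀ j k, a j ^ 2 = a k ^ 2) ∧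
    (g : Matrix (Fin 4) (Fin 4) F) = mon σ a}
  one_mem' := ⟨1, fun _ => 1, by decide, fun _ => one_pow 4, fun _ _ => rfl, by rw [mon_one, one_smul]; rfl⟩
  mul_mem' := by
    rintro g h ⟨σ, a, hσ, ha, ha', hg⟩ ⟨τ, b, hτ, hb, hb', hh⟩
    refine ⟨σ * τ, fun j => a (τ j) * b j, isV_mul _ _ hσ hτ, fun j => by rw [mul_pow, ha, hb, one_mul],
      fun j k => by rw [mul_pow, mul_pow, ha' (τ j) (τ k), hb' j k], ?_⟩
    rw [Matrix.SpecialLinearGroup.coe_mul, hg, hh, mon_mul]
  inv_mem' := by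
    rintro g ⟨σ, a, hσ, ha, ha', hg⟩
    refine ⟨σ⁻¹, fun j => (a (σ⁻¹ j))⁻¹, isV_inv _ hσ, fun j => by rw [inv_pow, ha, inv_one],
      fun j k => by rw [inv_pow, inv_pow, ha' (σ⁻¹ j) (σ⁻¹ k)], ?_⟩
    have h1 := mon_mul_inv σ (fun j => ne_zero_of_pow (ha j))
    rw [← hg] at h1
    have h3 : ((g⁻¹ : Matrix.SpecialLinearGroup (Fin 4) F) : Matrix (Fin 4) (Fin 4) F) * (g : Matrix (Fin 4) (Fin 4) F) = 1 := by
      rw [← Matrix.SpecialLinearGroup.coe_mul, inv_mul_cancel]
      rfl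
    calc ((g⁻¹ : Matrix.SpecialLinearGroup (Fin 4) F) : Matrix (Fin 4) (Fin 4) F)
        = ((g⁻¹ : Matrix.SpecialLinearGroup (Fin 4) F) : Matrix (Fin 4) (Fin 4) F) *
          ((g : Matrix (Fin 4) (Fin 4) F) * mon σ⁻¹ (fun j => (a (σ⁻¹ j))⁻¹)) := by rw [h1, Matrix.mul_one]
      _ = _ := by rw [← Matrix.mul_assoc, h3, Matrix.one_mul]

theorem E_le_W : E F ≤ W F := by
  rintro g ⟨σ, a, _, ha, _, hg⟩
  exact ⟨σ, a, ha, hg⟩

/-- elements of `E` in terms of signs -/
theorem exists_signs {σ : Perm (Fin 4)} {a : Fin 4 → F} (h2 : (2 : F) ≠ 0) (hσ : IsV σ) (ha : ∀ j, a j ^ 4 = 1)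
    (ha' : ∀ j k, a j ^ 2 = a k ^ 2) (hdet : (mon σ a).det = 1) :
    ∃ s : Fin 4 → ℤˣ, (∏ j, s j) = 1 ∧ ∀ j, a j = a 0 * ((s j : ℤ) : F) := by
  have h0 : a 0 ≠ 0 := ne_zero_of_pow (ha 0)
  choose s hs using fun j => sq_sq_eq (ha' j 0) h0
  refine ⟨s, ?_, hs⟩
  rw [det_mon, isV_sign σ hσ] at hdet
  simp only [Units.val_one, Int.cast_one, one_mul] at hdet
  have h3 : ∏ j, a j = (((∏ j, s j : ℤˣ) : ℤ) : F) := by
    calc ∏ j, a j = ∏ j, (a 0 * ((s j : ℤ) : F)) := Finset.prod_congr rfl fun j _ => hs j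
      _ = a 0 ^ 4 * ∏ j, ((s j : ℤ) : F) := by rw [Finset.prod_mul_distrib, Finset.prod_const, Finset.card_univ, Fintype.card_fin]
      _ = _ := by rw [ha, one_mul, Units.coe_prod, Int.cast_prod]
  rw [h3] at hdet
  rcases Int.units_eq_one_or (∏ j, s j) with h4 | h4
  · exact h4
  · exfalso
    rw [h4] at hdet
    apply h2
    have : (-1 : F) = 1 := by simpa using hdet
    linear_combination -this

/-- `E` is abelian modulo signs -/
theorem E_comm (h2 : (2 : F) ≠ 0) {g h : Matrix.SpecialLinearGroup (Fin 4) F} (hg : g ∈ E F) (hh : h ∈ E F) :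
    ∃ c : F, ((g * h : Matrix.SpecialLinearGroup (Fin 4) F) : Matrix (Fin 4) (Fin 4) F) =
      c • ((h * g : Matrix.SpecialLinearGroup (Fin 4) F) : Matrix (Fin 4) (Fin 4) F) := by
  obtain ⟨σ, a, hσ, ha, ha', hga⟩ := hg
  obtain ⟨τ, b, hτ, hb, hb', hhb⟩ := hh
  obtain ⟨s, hs, hs'⟩ := exists_signs h2 hσ ha ha' (by rw [← hga]; exact g.2)
  obtain ⟨t, ht, ht'⟩ := exists_signs h2 hτ hb hb' (by rw [← hhb]; exact h.2)
  refine ⟨((s (τ 0) * s 0 * (t (σ 0) * t 0) : ℤˣ) : ℤ), ?_⟩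
  rw [Matrix.SpecialLinearGroup.coe_mul, Matrix.SpecialLinearGroup.coe_mul, hga, hhb, mon_mul, mon_mul,
    isV_comm σ τ hσ hτ]
  ext i j
  rw [Matrix.smul_apply, mon_apply, mon_apply, smul_eq_mul]
  by_cases hij : i = (τ * σ) j
  · rw [if_pos hij, if_pos hij, hs' (τ j), hs' j, ht' (σ j), ht' j]
    have e1 := sgn_const s hs τ hτ j
    have e2 := sgn_const t ht σ hσ j
    have e3 : ∀ u : ℤˣ, ((u : ℤ) : F) * ((u : ℤ) : F) = 1 := by
      intro u
      rcases Int.units_eq_one_or u with h | h <;> rw [h] <;> simp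
    have e4 : (((s (τ 0) * s 0 * (t (σ 0) * t 0) : ℤˣ) : ℤ) : F) =
        ((s (τ j) : ℤ) : F) * ((s j : ℤ) : F) * (((t (σ j) : ℤ) : F) * ((t j : ℤ) : F)) := by
      rw [← e1, ← e2]
      push_cast
      ring
    rw [e4]
    linear_combination (-(a 0 * b 0 * ((s (τ j) : ℤ) : F) * ((t j : ℤ) : F))) *
      (e3 (s j) * (((t (σ j) : ℤ) : F) * ((t (σ j) : ℤ) : F)) + e3 (t (σ j)))
  · rw [if_neg hij, if_neg hij, mul_zero]

/-- squares of elements of `E` are scalars -/
theorem E_sq (h2 : (2 : F) ≠ 0) {g : Matrix.SpecialLinearGroup (Fin 4) F} (hg : g ∈ E F) :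
    ∃ c : F, ((g * g : Matrix.SpecialLinearGroup (Fin 4) F) : Matrix (Fin 4) (Fin 4) F) = c • (1 : Matrix (Fin 4) (Fin 4) F) := by
  obtain ⟨σ, a, hσ, ha, ha', hga⟩ := hg
  obtain ⟨s, hs, hs'⟩ := exists_signs h2 hσ ha ha' (by rw [← hga]; exact g.2)
  refine ⟨a 0 ^ 2 * ((s (σ 0) * s 0 : ℤˣ) : ℤ), ?_⟩
  rw [Matrix.SpecialLinearGroup.coe_mul, hga, mon_mul, hσ.1, ← mon_one]
  congr 1
  ext j
  rw [hs' (σ j), hs' j, ← sgn_const s hs σ hσ j]
  push_cast
  ring

/-- `W` normalises `E` -/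
theorem W_norm {w g : Matrix.SpecialLinearGroup (Fin 4) F} (hw : w ∈ W F) (hg : g ∈ E F) : w * g * w⁻¹ ∈ E F := by
  obtain ⟨σ, a, ha, hwa⟩ := hw
  obtain ⟨τ, b, hτ, hb, hb', hgb⟩ := hg
  have hwinv : ((w⁻¹ : Matrix.SpecialLinearGroup (Fin 4) F) : Matrix (Fin 4) (Fin 4) F) =
      mon σ⁻¹ (fun j => (a (σ⁻¹ j))⁻¹) := by
    have h1 := mon_mul_inv σ (fun j => ne_zero_of_pow (ha j))
    rw [← hwa] at h1
    have h3 : ((w⁻¹ : Matrix.SpecialLinearGroup (Fin 4) F) : Matrix (Fin 4) (Fin 4) F) * (w : Matrix (Fin 4) (Fin 4) F) = 1 := by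
      rw [← Matrix.SpecialLinearGroup.coe_mul, inv_mul_cancel]
      rfl
    calc ((w⁻¹ : Matrix.SpecialLinearGroup (Fin 4) F) : Matrix (Fin 4) (Fin 4) F)
        = ((w⁻¹ : Matrix.SpecialLinearGroup (Fin 4) F) : Matrix (Fin 4) (Fin 4) F) *
          ((w : Matrix (Fin 4) (Fin 4) F) * mon σ⁻¹ (fun j => (a (σ⁻¹ j))⁻¹)) := by rw [h1, Matrix.mul_one]
      _ = _ := by rw [← Matrix.mul_assoc, h3, Matrix.one_mul]
  refine ⟨σ * τ * σ⁻¹, fun j => a (τ (σ⁻¹ j)) * b (σ⁻¹ j) * (a (σ⁻¹ j))⁻¹, isV_conj σ τ hτ, fun j => ?_, ?_, ?_⟩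
  · rw [mul_pow, mul_pow, inv_pow, ha, hb, ha]; simp
  · -- the squares
    have hdet : (mon σ a).det = 1 := by rw [← hwa]; exact w.2
    have hprod : (∏ j, a j) ^ 2 = 1 := by
      rw [det_mon] at hdet
      have h1 : (((Perm.sign σ : ℤ) : F) * ∏ j, a j) ^ 2 = 1 := by rw [hdet, one_pow]
      rw [mul_pow] at h1
      have h3 : ((Perm.sign σ : ℤ) : F) ^ 2 = 1 := by
        rcases Int.units_eq_one_or (Perm.sign σ) with h | h <;> rw [h] <;> simp
      rwa [h3, one_mul] at h1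
    have key : ∀ j k, (a (τ j) * (a j)⁻¹) ^ 2 = (a (τ k) * (a k)⁻¹) ^ 2 := by
      rcases hτ.2 with rfl | hfix
      · intro j k
        rw [Perm.one_apply, Perm.one_apply, mul_inv_cancel₀ (ne_zero_of_pow (ha j)),
          mul_inv_cancel₀ (ne_zero_of_pow (ha k))]
      · intro j k
        have hj0 := ne_zero_of_pow (ha j)
        have hk0 := ne_zero_of_pow (ha k)
        by_cases hjk : j = k
        · rw [hjk]
        by_cases hjk' : τ j = k
        · have h5 : τ k = j := by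
            rw [← hjk', ← Perm.mul_apply, hτ.1, Perm.one_apply]
          rw [hjk', h5]
          field_simp
          linear_combination (ha k) - (ha j)
        · -- `{j, τ j, k, τ k}` is everything
          have h6 : (∏ l, a l) = a j * a (τ j) * (a k * a (τ k)) := by
            have hne1 : j ≠ τ j := (hfix j).symm
            have hne2 : k ≠ τ k := (hfix k).symm
            have hne3 : τ j ≠ τ k := fun h => hjk (τ.injective h)
            have hne4 : j ≠ τ k := by
              intro h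
              apply hjk'
              rw [h, ← Perm.mul_apply, hτ.1, Perm.one_apply]
            have hu : (Finset.univ : Finset (Fin 4)) = {j, τ j, k, τ k} := by
              symm
              apply Finset.eq_univ_of_card
              rw [Finset.card_insert_of_notMem, Finset.card_insert_of_notMem, Finset.card_insert_of_notMem,
                Finset.card_singleton, Fintype.card_fin]
              · simpa using hne2
              · simp only [Finset.mem_insert, Finset.mem_singleton, not_or]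
                exact ⟨hjk', hne3⟩
              · simp only [Finset.mem_insert, Finset.mem_singleton, not_or]
                exact ⟨hne1, hjk, hne4⟩
            rw [hu, Finset.prod_insert, Finset.prod_insert, Finset.prod_insert, Finset.prod_singleton]
            · ring
            · simpa using hne2
            · simp only [Finset.mem_insert, Finset.mem_singleton, not_or]
              exact ⟨hjk', hne3⟩
            · simp only [Finset.mem_insert, Finset.mem_singleton, not_or]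
              exact ⟨hne1, hjk, hne4⟩
          rw [h6] at hprod
          field_simp
          have h7 := ha j
          have h8 := ha (τ j)
          have h9 := ha k
          have h10 := ha (τ k)
          linear_combination (a (τ k) ^ 2 * a j ^ 2) * hprod - (a (τ j) ^ 2 * a k ^ 2) * (a (τ k) ^ 4 * h7 + h10)
    intro j k
    have := key (σ⁻¹ j) (σ⁻¹ k)
    have hb2 := hb' (σ⁻¹ j) (σ⁻¹ k)
    calc (a (τ (σ⁻¹ j)) * b (σ⁻¹ j) * (a (σ⁻¹ j))⁻¹) ^ 2 = (a (τ (σ⁻¹ j)) * (a (σ⁻¹ j))⁻¹) ^ 2 * b (σ⁻¹ j) ^ 2 := by ring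
      _ = (a (τ (σ⁻¹ k)) * (a (σ⁻¹ k))⁻¹) ^ 2 * b (σ⁻¹ k) ^ 2 := by rw [this, hb2]
      _ = _ := by ring
  · rw [Matrix.SpecialLinearGroup.coe_mul, Matrix.SpecialLinearGroup.coe_mul, hwa, hgb, hwinv, mon_mul, mon_mul]

/-! ## central elements and orders -/

theorem scalar_of_comm (h2 : (2 : F) ≠ 0) {g : Matrix.SpecialLinearGroup (Fin 4) F} (hg : g ∈ W F)
    (hc : ∀ w ∈ W F, w * g = g * w) : ∃ c : F, c ^ 4 = 1 ∧ (g : Matrix (Fin 4) (Fin 4) F) = c • (1 : Matrix (Fin 4) (Fin 4) F) := by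
  obtain ⟨σ, a, ha, hga⟩ := hg
  have hσ : σ = 1 := by
    by_contra hne
    obtain ⟨s, hs, j, hj⟩ := exists_sep σ hne
    have hdet : (mon 1 (fun k => ((s k : ℤ) : F))).det = 1 := by
      rw [det_mon, Perm.sign_one]
      have : ∏ k, ((s k : ℤ) : F) = (((∏ k, s k : ℤˣ) : ℤ) : F) := by rw [Units.coe_prod, Int.cast_prod]
      rw [this, hs]
      simp
    have hw : (⟨mon 1 (fun k => ((s k : ℤ) : F)), hdet⟩ : Matrix.SpecialLinearGroup (Fin 4) F) ∈ W F := by
      refine ⟨1, fun k => ((s k : ℤ) : F), fun k => ?_, rfl⟩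
      change ((s k : ℤ) : F) ^ 4 = 1
      rcases Int.units_eq_one_or (s k) with h | h <;> rw [h] <;> norm_num
    have h1 : mon 1 (fun k => ((s k : ℤ) : F)) * (g : Matrix (Fin 4) (Fin 4) F) =
        (g : Matrix (Fin 4) (Fin 4) F) * mon 1 (fun k => ((s k : ℤ) : F)) :=
      congrArg (fun m : Matrix.SpecialLinearGroup (Fin 4) F => (m : Matrix (Fin 4) (Fin 4) F)) (hc _ hw)
    rw [hga] at h1
    change mon 1 (fun k => ((s k : ℤ) : F)) * mon σ a = mon σ a * mon 1 (fun k => ((s k : ℤ) : F)) at h1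
    rw [mon_mul, mon_mul, one_mul, mul_one] at h1
    have h3 := congrFun (mon_inj (fun k => ?_) h1).2 j
    · simp only [Perm.one_apply] at h3
      have h4 : ((s (σ j) : ℤ) : F) = ((s j : ℤ) : F) := by
        apply mul_right_cancel₀ (ne_zero_of_pow (ha j))
        rw [h3, mul_comm]
      apply hj
      rcases Int.units_eq_one_or (s (σ j)) with h5 | h5 <;> rcases Int.units_eq_one_or (s j) with h6 | h6
      · rw [h5, h6]
      · exfalso
        rw [h5, h6] at h4
        apply h2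
        simp only [Units.val_one, Units.val_neg, Int.cast_one, Int.cast_neg] at h4
        linear_combination h4
      · exfalso
        rw [h5, h6] at h4
        apply h2
        simp only [Units.val_one, Units.val_neg, Int.cast_one, Int.cast_neg] at h4
        linear_combination -h4
      · rw [h5, h6]
    · refine mul_ne_zero ?_ (ne_zero_of_pow (ha k))
      rcases Int.units_eq_one_or (s (σ k)) with h | h <;> rw [h] <;> simp
  subst hσ
  have ha0 : ∀ j, a j = a 0 := by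
    intro j
    obtain ⟨τ, hτ, hτj⟩ := exists_V j
    have hdet : (mon τ (fun _ => (1 : F))).det = 1 := by
      rw [det_mon, isV_sign τ hτ]
      simp
    have h1 : mon τ (fun _ => (1 : F)) * (g : Matrix (Fin 4) (Fin 4) F) =
        (g : Matrix (Fin 4) (Fin 4) F) * mon τ (fun _ => (1 : F)) :=
      congrArg (fun m : Matrix.SpecialLinearGroup (Fin 4) F => (m : Matrix (Fin 4) (Fin 4) F))
        (hc ⟨mon τ (fun _ => (1 : F)), hdet⟩ ⟨τ, fun _ => 1, fun _ => one_pow 4, rfl⟩)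
    rw [hga] at h1
    change mon τ (fun _ => (1 : F)) * mon 1 a = mon 1 a * mon τ (fun _ => (1 : F)) at h1
    rw [mon_mul, mon_mul, one_mul, mul_one] at h1
    have h3 := congrFun (mon_inj (fun k => by rw [one_mul]; exact ne_zero_of_pow (ha k)) h1).2 0
    simp only [one_mul, mul_one, hτj] at h3
    exact h3.symm
  refine ⟨a 0, ha 0, ?_⟩
  rw [hga, ← mon_one]
  congr 1
  ext j
  exact ha0 j

theorem card_roots {i : F} (hi : i ^ 2 = -1) (h2 : (2 : F) ≠ 0) : Nat.card (rootsOfUnity 4 F) = 4 := by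
  have h1 : IsPrimitiveRoot i 4 := by
    refine IsPrimitiveRoot.mk_of_lt i (by norm_num) ?_ ?_
    · calc i ^ 4 = (i ^ 2) ^ 2 := by ring
        _ = 1 := by rw [hi]; ring
    · intro l hl hl4 h
      have hcases : l = 1 ∨ l = 2 ∨ l = 3 := by omega
      rcases hcases with rfl | rfl | rfl
      · rw [pow_one] at h
        rw [h, one_pow] at hi
        apply h2
        linear_combination hi
      · rw [hi] at h
        apply h2
        linear_combination -h
      · have : i = -1 := by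
          have h3 : i ^ 3 = i ^ 2 * i := by ring
          rw [h3, hi] at h
          linear_combination -h
        rw [this] at hi
        apply h2
        linear_combination hi
  exact h1.card_rootsOfUnity

/-- the fourth coefficient -/
def cf (σ : Perm (Fin 4)) (c : Fin 3 → rootsOfUnity 4 F) : Fin 4 → F :=
  Fin.snoc (α := fun _ => F) (fun j => ((c j : Fˣ) : F)) ((((Perm.sign σ : ℤ) : F) * ∏ j, ((c j : Fˣ) : F))⁻¹)

theorem sign_sq (u : ℤˣ) : ((u : ℤ) : F) * ((u : ℤ) : F) = 1 := by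
  rcases Int.units_eq_one_or u with h | h <;> rw [h] <;> simp

theorem root_pow (c : rootsOfUnity 4 F) : ((c : Fˣ) : F) ^ 4 = 1 := by
  have := c.2
  rw [mem_rootsOfUnity] at this
  rw [← Units.val_pow_eq_pow_val, this, Units.val_one]

theorem cf_pow (σ : Perm (Fin 4)) (c : Fin 3 → rootsOfUnity 4 F) (j : Fin 4) : cf σ c j ^ 4 = 1 := by
  refine Fin.lastCases ?_ (fun j => ?_) j
  · rw [cf, Fin.snoc_last, inv_pow, mul_pow, ← Finset.prod_pow]
    have h1 : ((Perm.sign σ : ℤ) : F) ^ 4 = 1 := by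
      have := sign_sq (F := F) (Perm.sign σ)
      calc ((Perm.sign σ : ℤ) : F) ^ 4 = (((Perm.sign σ : ℤ) : F) * ((Perm.sign σ : ℤ) : F)) ^ 2 := by ring
        _ = 1 := by rw [this, one_pow]
    rw [h1, Finset.prod_eq_one (fun k _ => root_pow (c k)), one_mul, inv_one]
  · rw [cf, Fin.snoc_castSucc]
    exact root_pow _

theorem cf_det (σ : Perm (Fin 4)) (c : Fin 3 → rootsOfUnity 4 F) : (mon σ (cf σ c)).det = 1 := by
  rw [det_mon, Fin.prod_univ_castSucc]
  simp only [cf, Fin.snoc_castSucc, Fin.snoc_last]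
  rw [← mul_assoc]
  apply mul_inv_cancel₀
  refine mul_ne_zero ?_ (Finset.prod_ne_zero_iff.2 fun j _ => Units.ne_zero _)
  intro h
  have := sign_sq (F := F) (Perm.sign σ)
  rw [h, zero_mul] at this
  exact zero_ne_one this

/-- the order of `W` -/
theorem card_W {i : F} (hi : i ^ 2 = -1) (h2 : (2 : F) ≠ 0) : Nat.card (W F) = 1536 := by
  let Ψ : Perm (Fin 4) × (Fin 3 → rootsOfUnity 4 F) → W F := fun p =>
    ⟨⟨mon p.1 (cf p.1 p.2), cf_det p.1 p.2⟩, p.1, cf p.1 p.2, cf_pow p.1 p.2, rfl⟩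
  have hinj : Function.Injective Ψ := by
    rintro ⟨σ, c⟩ ⟨τ, d⟩ h
    have h1 : mon σ (cf σ c) = mon τ (cf τ d) := congrArg (fun w : W F => ((w : Matrix.SpecialLinearGroup (Fin 4) F) : Matrix (Fin 4) (Fin 4) F)) h
    obtain ⟨h3, h4⟩ := mon_inj (fun j => ne_zero_of_pow (cf_pow σ c j)) h1
    subst h3
    refine Prod.ext rfl (funext fun j => ?_)
    have h5 := congrFun h4 j.castSucc
    simp only [cf, Fin.snoc_castSucc] at h5
    exact Subtype.ext (Units.ext h5)
  have hsurj : Function.Surjective Ψ := by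
    rintro ⟨g, σ, a, ha, hg⟩
    let c : Fin 3 → rootsOfUnity 4 F := fun j => ⟨Units.mk0 (a j.castSucc) (ne_zero_of_pow (ha _)), by
      rw [mem_rootsOfUnity]
      ext
      rw [Units.val_pow_eq_pow_val, Units.val_mk0, ha, Units.val_one]⟩
    refine ⟨(σ, c), Subtype.ext (Subtype.ext ?_)⟩
    change mon σ (cf σ c) = (g : Matrix (Fin 4) (Fin 4) F)
    rw [hg]
    congr 1
    ext j
    refine Fin.lastCases ?_ (fun j => ?_) j
    · rw [cf, Fin.snoc_last]
      have hdet : (mon σ a).det = 1 := by rw [← hg]; exact g.2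
      rw [det_mon, Fin.prod_univ_castSucc, ← mul_assoc] at hdet
      exact (eq_inv_of_mul_eq_one_right hdet).symm
    · rw [cf, Fin.snoc_castSucc]
      rfl
  rw [← Nat.card_eq_of_bijective Ψ ⟨hinj, hsurj⟩, Nat.card_prod, Nat.card_pi]
  have h3 : Nat.card (Perm (Fin 4)) = 24 := by
    rw [Nat.card_eq_fintype_card, Fintype.card_perm, Fintype.card_fin]
    rfl
  rw [h3]
  simp only [card_roots hi h2, Finset.prod_const, Finset.card_univ, Fintype.card_fin]
  norm_num

section Hom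

variable {G : Type*} [Group G] (f : G →* Matrix.SpecialLinearGroup (Fin 4) F) (hf : Function.Injective f)

include hf in
theorem mem_center_of_scalar {x : G} {c : F}
    (h : (f x : Matrix (Fin 4) (Fin 4) F) = c • (1 : Matrix (Fin 4) (Fin 4) F)) : x ∈ Subgroup.center G := by
  rw [Subgroup.mem_center_iff]
  intro g
  apply hf
  rw [map_mul, map_mul]
  ext1
  rw [Matrix.SpecialLinearGroup.coe_mul, Matrix.SpecialLinearGroup.coe_mul, h]
  simp

variable (hW : W F ≤ f.range)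

include hW in
theorem scalar_of_mem_center (h2 : (2 : F) ≠ 0) {x : G} (hx : f x ∈ W F) (hc : x ∈ Subgroup.center G) :
    ∃ c : F, c ^ 4 = 1 ∧ (f x : Matrix (Fin 4) (Fin 4) F) = c • (1 : Matrix (Fin 4) (Fin 4) F) := by
  refine scalar_of_comm h2 hx fun w hw => ?_
  obtain ⟨y, rfl⟩ := hW hw
  rw [← map_mul, ← map_mul, (Subgroup.mem_center_iff.1 hc y)]

include hf hW in
theorem card_Wbar {i : F} (hi : i ^ 2 = -1) (h2 : (2 : F) ≠ 0) :
    Nat.card (((W F).comap f).map (QuotientGroup.mk' (Subgroup.center G))) = 384 := by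
  let W' := (W F).comap f
  have hW' : Nat.card W' = 1536 := by
    rw [← card_W hi h2, ← Subgroup.card_map_of_injective (K := W') hf, Subgroup.map_comap_eq_self hW]
  let φ : W' →* G ⧸ Subgroup.center G := (QuotientGroup.mk' (Subgroup.center G)).comp W'.subtype
  have hr : φ.range = W'.map (QuotientGroup.mk' (Subgroup.center G)) := by
    rw [MonoidHom.range_comp, Subgroup.range_subtype]
  have hker : Nat.card φ.ker = 4 := by
    rw [← card_roots hi h2]
    have hex : ∀ c : rootsOfUnity 4 F, ∃ x : φ.ker, (f x.1.1 : Matrix (Fin 4) (Fin 4) F) =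
        ((c : Fˣ) : F) • (1 : Matrix (Fin 4) (Fin 4) F) := by
      intro c
      have hdet : (mon 1 (fun _ => ((c : Fˣ) : F))).det = 1 := by
        rw [det_mon, Perm.sign_one, Finset.prod_const, Finset.card_univ, Fintype.card_fin, root_pow]
        simp
      have hmem : (⟨mon 1 (fun _ => ((c : Fˣ) : F)), hdet⟩ : Matrix.SpecialLinearGroup (Fin 4) F) ∈ W F :=
        ⟨1, fun _ => ((c : Fˣ) : F), fun _ => root_pow c, rfl⟩
      obtain ⟨x, hx⟩ := hW hmem
      have hx' : (f x : Matrix (Fin 4) (Fin 4) F) = ((c : Fˣ) : F) • (1 : Matrix (Fin 4) (Fin 4) F) := by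
        rw [hx, ← mon_one]
      refine ⟨⟨⟨x, ?_⟩, ?_⟩, hx'⟩
      · change f x ∈ W F
        rw [hx]
        exact hmem
      · rw [MonoidHom.mem_ker]
        change ((x : G) : G ⧸ Subgroup.center G) = 1
        rw [QuotientGroup.eq_one_iff]
        exact mem_center_of_scalar f hf hx'
    choose Φ hΦ using hex
    refine (Nat.card_eq_of_bijective Φ ⟨?_, ?_⟩).symm
    · intro c d h
      have h1 : (f (Φ c).1.1 : Matrix (Fin 4) (Fin 4) F) = f (Φ d).1.1 := by rw [h]
      rw [hΦ, hΦ] at h1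
      have h3 := congrFun (congrFun h1 0) 0
      simp only [Matrix.smul_apply, Matrix.one_apply_eq, smul_eq_mul, mul_one] at h3
      exact Subtype.ext (Units.ext h3)
    · rintro ⟨⟨x, hx⟩, hx'⟩
      have hxc : x ∈ Subgroup.center G := by
        rw [MonoidHom.mem_ker] at hx'
        exact (QuotientGroup.eq_one_iff x).1 hx'
      obtain ⟨c, hc, hc'⟩ := scalar_of_mem_center f hW h2 hx hxc
      let c' : rootsOfUnity 4 F := ⟨Units.mk0 c (ne_zero_of_pow hc), by
        rw [mem_rootsOfUnity]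
        ext
        rw [Units.val_pow_eq_pow_val, Units.val_mk0, hc, Units.val_one]⟩
      refine ⟨c', Subtype.ext (Subtype.ext (hf (Subtype.ext ?_)))⟩
      rw [hΦ]
      change c • (1 : Matrix (Fin 4) (Fin 4) F) = (f x : Matrix (Fin 4) (Fin 4) F)
      rw [hc']
  have h3 := Subgroup.card_eq_card_quotient_mul_card_subgroup φ.ker
  rw [Nat.card_congr (QuotientGroup.quotientKerEquivRange φ).toEquiv, hker, hW', hr] at h3
  change Nat.card (W'.map (QuotientGroup.mk' (Subgroup.center G))) = 384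
  omega

include hf hW in
/-- the main statement -/
theorem lower_of_hom [Finite G] {i : F} (hi : i ^ 2 = -1) (h2 : (2 : F) ≠ 0)
    (hcard : (Nat.card (G ⧸ Subgroup.center G)).factorization 2 = 7) (S : Sylow 2 (G ⧸ Subgroup.center G)) :
    Lower ↥(S : Subgroup (G ⧸ Subgroup.center G)) 4 := by
  have hz : ∀ x y : G, ∀ c : F, (f x : Matrix (Fin 4) (Fin 4) F) = c • (f y : Matrix (Fin 4) (Fin 4) F) →
      ((x : G) : G ⧸ Subgroup.center G) = y := by
    intro x y c h
    rw [eq_comm, QuotientGroup.eq]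
    refine mem_center_of_scalar f hf (c := c) ?_
    rw [map_mul, Matrix.SpecialLinearGroup.coe_mul, h, Matrix.mul_smul, ← Matrix.SpecialLinearGroup.coe_mul, ← map_mul,
      inv_mul_cancel, map_one, Matrix.SpecialLinearGroup.coe_one]
  refine lower_of (((W F).comap f).map (QuotientGroup.mk' (Subgroup.center G)))
    (((E F).comap f).map (QuotientGroup.mk' (Subgroup.center G)))
    (Subgroup.map_mono (Subgroup.comap_mono E_le_W)) ?_ ?_ ?_ ?_ S
  · rintro _ ⟨w, hw, rfl⟩ _ ⟨e, he, rfl⟩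
    refine ⟨w * e * w⁻¹, ?_, by simp only [map_mul, map_inv]⟩
    change f (w * e * w⁻¹) ∈ E F
    rw [map_mul, map_mul, map_inv]
    exact W_norm hw he
  · rw [elemAb_iff]
    constructor
    · rintro _ ⟨x, hx, rfl⟩ _ ⟨y, hy, rfl⟩
      obtain ⟨c, hc⟩ := E_comm h2 hx hy
      rw [← map_mul, ← map_mul]
      exact hz _ _ c (by rw [map_mul, map_mul]; exact hc)
    · rintro _ ⟨x, hx, rfl⟩
      obtain ⟨c, hc⟩ := E_sq h2 hx
      rw [← map_mul, ← map_one (QuotientGroup.mk' (Subgroup.center G))]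
      exact hz _ _ c (by rw [map_mul, map_one, Matrix.SpecialLinearGroup.coe_one]; exact hc)
  · rw [card_Wbar f hf hW hi h2, hcard]
    have : (384 : ℕ) = 2 ^ 7 * 3 := by norm_num
    rw [this, Nat.factorization_mul (by norm_num) (by norm_num), Nat.Prime.factorization_pow Nat.prime_two,
      Nat.Prime.factorization Nat.prime_three]
    simp
  · -- sixteen elements
    let X := {p : (Fin 4 → ℤˣ) × Perm (Fin 4) // (∏ j, p.1 j) = 1 ∧ p.1 0 = 1 ∧ IsV p.2}
    have hX : Nat.card X = 2 ^ 4 := by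
      rw [Nat.card_eq_fintype_card]
      decide +kernel
    rw [← hX]
    have hdet : ∀ p : X, (mon p.1.2 (fun j => ((p.1.1 j : ℤ) : F))).det = 1 := by
      intro p
      rw [det_mon, isV_sign _ p.2.2.2]
      have : ∏ k, ((p.1.1 k : ℤ) : F) = (((∏ k, p.1.1 k : ℤˣ) : ℤ) : F) := by rw [Units.coe_prod, Int.cast_prod]
      rw [this, p.2.1]
      simp
    have hmem : ∀ p : X, (⟨mon p.1.2 (fun j => ((p.1.1 j : ℤ) : F)), hdet p⟩ : Matrix.SpecialLinearGroup (Fin 4) F) ∈ E F := by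
      intro p
      refine ⟨p.1.2, _, p.2.2.2, fun j => ?_, fun j k => ?_, rfl⟩
      · calc ((p.1.1 j : ℤ) : F) ^ 4 = (((p.1.1 j : ℤ) : F) * ((p.1.1 j : ℤ) : F)) ^ 2 := by ring
          _ = 1 := by rw [sign_sq, one_pow]
      · rw [pow_two, pow_two, sign_sq, sign_sq]
    choose Φ hΦ using fun p : X => hW (E_le_W (hmem p))
    refine Nat.card_le_card_of_injective (fun p : X => (⟨(QuotientGroup.mk' (Subgroup.center G)) (Φ p), Φ p, by
      change f (Φ p) ∈ E F
      rw [hΦ]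
      exact hmem p, rfl⟩ : (((E F).comap f).map (QuotientGroup.mk' (Subgroup.center G))))) ?_
    intro p p' h
    have h1 : ((Φ p : G) : G ⧸ Subgroup.center G) = Φ p' := congrArg Subtype.val h
    rw [QuotientGroup.eq] at h1
    obtain ⟨c, -, hc⟩ := scalar_of_mem_center f hW h2 (x := (Φ p)⁻¹ * Φ p') (by
      rw [map_mul, map_inv]
      refine mul_mem (inv_mem ?_) ?_
      · rw [hΦ]; exact E_le_W (hmem p)
      · rw [hΦ]; exact E_le_W (hmem p')) h1
    have h3 : (f (Φ p') : Matrix (Fin 4) (Fin 4) F) = c • (f (Φ p) : Matrix (Fin 4) (Fin 4) F) := by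
      have : Φ p' = Φ p * ((Φ p)⁻¹ * Φ p') := by group
      rw [this, map_mul, Matrix.SpecialLinearGroup.coe_mul, hc, Matrix.mul_smul, Matrix.mul_one]
    rw [hΦ, hΦ] at h3
    change mon p'.1.2 (fun j => ((p'.1.1 j : ℤ) : F)) = c • mon p.1.2 (fun j => ((p.1.1 j : ℤ) : F)) at h3
    have h4 : c • mon p.1.2 (fun j => ((p.1.1 j : ℤ) : F)) = mon p.1.2 (fun j => c * ((p.1.1 j : ℤ) : F)) := by
      ext i j
      rw [Matrix.smul_apply, mon_apply, mon_apply, smul_eq_mul, mul_ite, mul_zero]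
    rw [h4] at h3
    have hne : ∀ j, ((p'.1.1 j : ℤ) : F) ≠ 0 := by
      intro j h
      have := sign_sq (F := F) (p'.1.1 j)
      rw [h, zero_mul] at this
      exact zero_ne_one this
    obtain ⟨h5, h6⟩ := mon_inj hne h3
    have h7 := congrFun h6 0
    simp only [p.2.2.1, p'.2.2.1, Units.val_one, Int.cast_one, mul_one] at h7
    refine Subtype.ext (Prod.ext (funext fun j => ?_) h5.symm)
    have h8 := congrFun h6 j
    simp only [← h7, one_mul] at h8
    rcases Int.units_eq_one_or (p.1.1 j) with h9 | h9 <;> rcases Int.units_eq_one_or (p'.1.1 j) with h10 | h10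
    · rw [h9, h10]
    · exfalso
      rw [h9, h10] at h8
      apply h2
      simp only [Units.val_one, Units.val_neg, Int.cast_one, Int.cast_neg] at h8
      linear_combination -h8
    · exfalso
      rw [h9, h10] at h8
      apply h2
      simp only [Units.val_one, Units.val_neg, Int.cast_one, Int.cast_neg] at h8
      linear_combination h8
    · rw [h9, h10]

end Hom

end Cfsg.Agent.H956.MonoFour
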