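import Mathlib
import Cfsg.Agent.S0243
import Cfsg.Agent.S0280
import Cfsg.Agent.H956.MonoFour

/-!
# Normal elementary abelian subgroups of the Sylow 2-subgroups of `PSL_4(q)`, `q = 5 (mod 8)`, and `PSU_4(q)`, `q = 3 (mod 8)`
-/

set_option autoImplicit false

namespace Cfsg.Agent.H956.NormE8

open Matrix Equiv
open Cfsg.Agent.H100.NormRank Cfsg.Agent.H956.MonoFour

theorem Lower.mono {G : Type*} [Group G] {k l : ℕ} (hkl : k ≤ l) (h : Lower G l) : Lower G k := by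
  obtain ⟨E, h1, h2, h3⟩ := h
  exact ⟨E, h1, h2, (Nat.pow_le_pow_right (by norm_num) hkl).trans h3⟩

theorem fact_two {N m : ℕ} (h : N = 128 * m) (hm : ¬ 2 ∣ m) : N.factorization 2 = 7 := by
  have hm0 : m ≠ 0 := by
    rintro rfl
    exact hm (dvd_zero 2)
  rw [h, Nat.factorization_mul (by norm_num) hm0, show (128 : ℕ) = 2 ^ 7 by norm_num,
    Nat.Prime.factorization_pow Nat.prime_two, Finsupp.add_apply, Nat.factorization_eq_zero_of_not_dvd hm]
  simp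

theorem odd_mul' {a b : ℕ} (ha : ¬ 2 ∣ a) (hb : ¬ 2 ∣ b) : ¬ 2 ∣ a * b := by
  intro h
  rcases (Nat.Prime.dvd_mul Nat.prime_two).1 h with h | h
  · exact ha h
  · exact hb h

theorem odd_pow' {a : ℕ} (ha : ¬ 2 ∣ a) (n : ℕ) : ¬ 2 ∣ a ^ n := fun h => ha (Nat.Prime.dvd_of_dvd_pow Nat.prime_two h)

/-- the 2-part of the order of `PSL_4(q)` -/
theorem fact_psl {F : Type} [Field F] [Fintype F] (hF : Fintype.card F % 8 = 5) :
    (Nat.card (Matrix.ProjectiveSpecialLinearGroup (Fin 4) F)).factorization 2 = 7 := by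
  obtain ⟨k, hk⟩ : ∃ k, Fintype.card F = 8 * k + 5 := ⟨Fintype.card F / 8, by omega⟩
  have h := Cfsg.Agent.S0243.result hk 4 (by norm_num)
  generalize Nat.card (Matrix.ProjectiveSpecialLinearGroup (Fin 4) F) = N at h ⊢
  have h1 : 8 * k + 5 - 1 = 4 * (2 * k + 1) := by omega
  rw [h1, Nat.gcd_mul_right_right] at h
  simp only [Fin.prod_univ_four] at h
  have e0 : (8 * k + 5) ^ 4 - (8 * k + 5) ^ ((0 : Fin 4) : ℕ) = 16 * ((2 * k + 1) * (4 * k + 3) * (32 * k ^ 2 + 40 * k + 13)) := by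
    apply Nat.sub_eq_of_eq_add
    simp only [Fin.val_zero]
    ring
  have e1 : (8 * k + 5) ^ 4 - (8 * k + 5) ^ ((1 : Fin 4) : ℕ) = (8 * k + 5) * (4 * ((2 * k + 1) * ((8 * k + 5) ^ 2 + (8 * k + 5) + 1))) := by
    apply Nat.sub_eq_of_eq_add
    simp only [Fin.val_one]
    ring
  have e2 : (8 * k + 5) ^ 4 - (8 * k + 5) ^ ((2 : Fin 4) : ℕ) = (8 * k + 5) ^ 2 * (8 * ((2 * k + 1) * (4 * k + 3))) := by
    apply Nat.sub_eq_of_eq_add
    simp only [Fin.val_two]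
    ring
  have e3 : (8 * k + 5) ^ 4 - (8 * k + 5) ^ ((3 : Fin 4) : ℕ) = (8 * k + 5) ^ 3 * (4 * (2 * k + 1)) := by
    apply Nat.sub_eq_of_eq_add
    have : ((3 : Fin 4) : ℕ) = 3 := rfl
    rw [this]
    ring
  rw [e0, e1, e2, e3] at h
  have hN : N = 128 * ((8 * k + 5) ^ 6 * (2 * k + 1) ^ 3 * (4 * k + 3) ^ 2 * (32 * k ^ 2 + 40 * k + 13) *
      ((8 * k + 5) ^ 2 + (8 * k + 5) + 1)) := by
    have hpos : 0 < 4 * (4 * (2 * k + 1)) := by positivity
    apply Nat.eq_of_mul_eq_mul_left hpos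
    rw [mul_assoc, h]
    ring
  refine fact_two hN ?_
  refine odd_mul' (odd_mul' (odd_mul' (odd_mul' (odd_pow' (by omega) _) (odd_pow' (by omega) _)) (odd_pow' (by omega) _)) ?_) ?_
  · have : 32 * k ^ 2 + 40 * k + 13 = 2 * (16 * k ^ 2 + 20 * k + 6) + 1 := by ring
    omega
  · have : (8 * k + 5) ^ 2 + (8 * k + 5) + 1 = 2 * (32 * k ^ 2 + 44 * k + 15) + 1 := by ring
    omega

/-- the 2-part of the order of `PSU_4(q)` -/
theorem fact_psu {F : Type} [Field F] [Fintype F] {q : ℕ} (hF : Fintype.card F = q ^ 2) (hq : q % 8 = 3) :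
    (Nat.card (Cfsg.PSU 4 F q)).factorization 2 = 7 := by
  have h := Cfsg.Agent.S0280.result hF 4 (by norm_num)
  generalize Nat.card (Cfsg.PSU 4 F q) = N at h ⊢
  obtain ⟨k, hk⟩ : ∃ k, q = 8 * k + 3 := ⟨q / 8, by omega⟩
  subst hk
  have h1 : 8 * k + 3 + 1 = 4 * (2 * k + 1) := by omega
  simp only [Finset.prod_range_succ, Finset.prod_range_zero, one_mul] at h
  have e1 : (if Even 1 then (8 * k + 3) ^ (1 + 1) + 1 else (8 * k + 3) ^ (1 + 1) - 1) = 8 * ((2 * k + 1) * (4 * k + 1)) := by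
    rw [if_neg (by decide)]
    apply Nat.sub_eq_of_eq_add
    ring
  have e0 : (if Even 0 then (8 * k + 3) ^ (0 + 1) + 1 else (8 * k + 3) ^ (0 + 1) - 1) = 4 * (2 * k + 1) := by
    rw [if_pos (by decide), zero_add, pow_one]
    omega
  have e2 : (if Even 2 then (8 * k + 3) ^ (2 + 1) + 1 else (8 * k + 3) ^ (2 + 1) - 1) =
      4 * ((2 * k + 1) * (64 * k ^ 2 + 40 * k + 7)) := by
    rw [if_pos (by decide)]
    ring
  have e3 : (if Even 3 then (8 * k + 3) ^ (3 + 1) + 1 else (8 * k + 3) ^ (3 + 1) - 1) =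
      16 * ((2 * k + 1) * (4 * k + 1) * (32 * k ^ 2 + 24 * k + 5)) := by
    rw [if_neg (by decide)]
    apply Nat.sub_eq_of_eq_add
    ring
  rw [h1, Nat.gcd_mul_right_right, e0, e1, e2, e3] at h
  have hN : N = 128 * ((8 * k + 3) ^ 6 * (2 * k + 1) ^ 3 * (4 * k + 1) ^ 2 * (32 * k ^ 2 + 24 * k + 5) *
      (64 * k ^ 2 + 40 * k + 7)) := by
    have hpos : 0 < 4 * (4 * (2 * k + 1)) := by positivity
    apply Nat.eq_of_mul_eq_mul_left hpos
    rw [mul_assoc, h]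
    norm_num
    ring
  refine fact_two hN ?_
  refine odd_mul' (odd_mul' (odd_mul' (odd_mul' (odd_pow' (by omega) _) (odd_pow' (by omega) _)) (odd_pow' (by omega) _)) ?_) ?_
  · have : 32 * k ^ 2 + 24 * k + 5 = 2 * (16 * k ^ 2 + 12 * k + 2) + 1 := by ring
    omega
  · have : 64 * k ^ 2 + 40 * k + 7 = 2 * (32 * k ^ 2 + 20 * k + 3) + 1 := by ring
    omega

theorem two_ne_zero' {F : Type} [Field F] [Fintype F] (h : Fintype.card F % 2 = 1) : (2 : F) ≠ 0 := by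
  intro h2
  have h3 : ringChar F = 2 := by
    have h4 : ringChar F ∣ 2 := (ringChar.spec F 2).1 (by exact_mod_cast h2)
    exact ((Nat.dvd_prime Nat.prime_two).1 h4).resolve_left (CharP.ringChar_ne_one)
  rw [FiniteField.even_card_iff_char_two] at h3
  omega

theorem lower_L45 {F : Type} [Field F] [Fintype F] (hF : Fintype.card F % 8 = 5)
    (S : Sylow 2 (Matrix.ProjectiveSpecialLinearGroup (Fin 4) F)) :
    Lower ↥(S : Subgroup (Matrix.ProjectiveSpecialLinearGroup (Fin 4) F)) 3 := by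
  have h2 : (2 : F) ≠ 0 := two_ne_zero' (by omega)
  obtain ⟨i, hi⟩ := FiniteField.isSquare_neg_one_iff.2 (show Fintype.card F % 4 ≠ 3 by omega)
  refine Lower.mono (by norm_num) (lower_of_hom (MonoidHom.id (Matrix.SpecialLinearGroup (Fin 4) F)) (fun _ _ h => h)
    (fun g _ => ⟨g, rfl⟩) (i := i) (by rw [pow_two, hi]) h2 (fact_psl hF) S)

/-- monomial matrices are unitary -/
theorem W_le_SU {F : Type} [Field F] {q : ℕ} (hq : q % 4 = 3) : W F ≤ Cfsg.SU 4 F q := by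
  rintro g ⟨σ, a, ha, hg⟩
  have hmul : ∀ (u : Fin 4 → F) (j : Fin 4), (mon σ a *ᵥ u) (σ j) = a j * u j := by
    intro u j
    rw [Matrix.mulVec, dotProduct, Finset.sum_eq_single j]
    · rw [mon_apply, if_pos rfl]
    · intro k _ hk
      rw [mon_apply, if_neg (fun h => hk (σ.injective h).symm), zero_mul]
    · intro h
      exact absurd (Finset.mem_univ _) h
  have haq : ∀ j, a j * a j ^ q = 1 := by
    intro j
    obtain ⟨m, hm⟩ : ∃ m, q + 1 = 4 * m := ⟨(q + 1) / 4, by omega⟩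
    rw [← pow_succ', hm, pow_mul, ha, one_pow]
  intro u v
  change Cfsg.hermForm 4 F q ((g : Matrix (Fin 4) (Fin 4) F) *ᵥ u) ((g : Matrix (Fin 4) (Fin 4) F) *ᵥ v) = Cfsg.hermForm 4 F q u v
  rw [hg]
  unfold Cfsg.hermForm
  rw [← Equiv.sum_comp σ]
  refine Finset.sum_congr rfl fun j _ => ?_
  rw [hmul, hmul, mul_pow]
  linear_combination (u j * v j ^ q) * haq j

theorem lower_U43 {F : Type} [Field F] [Fintype F] {q : ℕ} (hF : Fintype.card F = q ^ 2) (hq : q % 8 = 3)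
    (S : Sylow 2 (Cfsg.PSU 4 F q)) : Lower ↥(S : Subgroup (Cfsg.PSU 4 F q)) 3 := by
  obtain ⟨k, hk⟩ : ∃ k, q = 8 * k + 3 := ⟨q / 8, by omega⟩
  have hF' : Fintype.card F = 8 * (8 * k ^ 2 + 6 * k + 1) + 1 := by rw [hF, hk]; ring
  have h2 : (2 : F) ≠ 0 := two_ne_zero' (by omega)
  obtain ⟨i, hi⟩ := FiniteField.isSquare_neg_one_iff.2 (show Fintype.card F % 4 ≠ 3 by omega)
  refine Lower.mono (by norm_num) (lower_of_hom (Cfsg.SU 4 F q).subtype (Cfsg.SU 4 F q).subtype_injective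
    (fun g hg => ⟨⟨g, W_le_SU (by omega) hg⟩, rfl⟩) (i := i) (by rw [pow_two, hi]) h2 (fact_psu hF hq) S)

end Cfsg.Agent.H956.NormE8
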