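import Mathlib
import Cfsg.Agent.H956.OrthSim
import Cfsg.Agent.H956.DetIrr
import Cfsg.Agent.H956.ConjIrr

/-!
# Square roots of non-square scalars as similarities of quadratic forms
-/

set_option autoImplicit false

namespace Cfsg.Agent.H956.OrthSim2

open Matrix Polynomial
open scoped MatrixGroups
open Cfsg.Agent.H956.Conj Cfsg.Agent.H956.EigMult Cfsg.Agent.H956.OrthSim Cfsg.Agent.H956.DetIrr
open Cfsg.Agent.H956.ConjIrr

variable {F : Type*} [Field F]

def JJ (z : F) : Matrix (Fin 2) (Fin 2) F := !![0, z; 1, 0]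

def DD (z : F) (p : F × F) : Matrix (Fin 2) (Fin 2) F := !![p.1, p.2; p.2, z * p.1]

theorem JJ_sq (z : F) : JJ z * JJ z = z • (1 : Matrix (Fin 2) (Fin 2) F) := by
  ext i j
  fin_cases i <;> fin_cases j <;> simp [JJ, Matrix.mul_apply, Fin.sum_univ_two]

theorem JJ_det (z : F) : (JJ z).det = -z := by
  simp [JJ, Matrix.det_fin_two]

theorem DD_transpose (z : F) (p : F × F) : (DD z p)ᵀ = DD z p := by
  ext i j
  fin_cases i <;> fin_cases j <;> simp [DD]

theorem DD_det (z : F) (p : F × F) : (DD z p).det = z * p.1 ^ 2 - p.2 ^ 2 := by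
  simp [DD, Matrix.det_fin_two]
  ring

theorem JJ_DD (z : F) (p : F × F) : (JJ z)ᵀ * DD z p * JJ z = z • DD z p := by
  ext i j
  fin_cases i <;> fin_cases j <;> simp [JJ, DD, Matrix.mul_apply, Fin.sum_univ_two] <;> ring

/-- **Elements whose square is a non-square scalar are conjugate to similarities of every quadratic form.** -/
theorem nonsquare_sim [Finite F] {n : ℕ} (hn : 0 < n) {Q : (Fin n → F) → F} (h2 : (2 : F) ≠ 0)
    (hQ : Cfsg.Geo.IsNondegenerateQuadraticForm Q) {z : F} (hz : ¬ IsSquare z) (x : GL (Fin n) F)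
    (hx : (x : Matrix (Fin n) (Fin n) F) ^ 2 = z • (1 : Matrix (Fin n) (Fin n) F)) :
    ∃ g : GL (Fin n) F, (g : Matrix (Fin n) (Fin n) F).det = 1 ∧ g⁻¹ * x * g ∈ Cfsg.Geo.quadSimilarityGroup Q := by
  classical
  have : Nonempty (Fin n) := ⟨⟨0, hn⟩⟩
  have hz0 : z ≠ 0 := by
    rintro rfl
    exact hz ⟨0, by simp⟩
  obtain ⟨k, hk, -⟩ := det_of_pow_eq (by norm_num) (irreducible_sq hz) (x : Matrix (Fin n) (Fin n) F) hx
  rw [Fintype.card_fin] at hk
  let e : Fin n ≃ Fin 2 × Fin k := Fintype.equivOfCardEq (by simp [hk])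
  let Y : Matrix (Fin n) (Fin n) F := Matrix.reindex e.symm e.symm (Matrix.blockDiagonal (fun _ : Fin k => JJ z))
  have hYdet : Y.det ≠ 0 := by
    simp only [Y]
    rw [Matrix.det_reindex_self, Matrix.det_blockDiagonal]
    apply Finset.prod_ne_zero_iff.2
    intro i _
    rw [JJ_det]
    exact neg_ne_zero.2 hz0
  let y : GL (Fin n) F := Matrix.GeneralLinearGroup.mkOfDetNeZero Y hYdet
  have hyY : (y : Matrix (Fin n) (Fin n) F) = Y := rfl
  have hy2 : (y : Matrix (Fin n) (Fin n) F) ^ 2 = z • (1 : Matrix (Fin n) (Fin n) F) := by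
    rw [hyY, pow_two]
    simp only [Y]
    rw [Matrix.reindex_apply, Matrix.submatrix_mul_equiv, ← Matrix.blockDiagonal_mul]
    simp only [JJ_sq]
    ext i j
    simp only [Matrix.submatrix_apply, Matrix.smul_apply, Matrix.one_apply, smul_eq_mul, Matrix.blockDiagonal_apply,
      Equiv.symm_symm]
    by_cases hij : i = j
    · subst hij
      simp
    · rw [if_neg hij, mul_zero]
      by_cases h1 : (e i).2 = (e j).2
      · rw [if_pos h1, if_neg, mul_zero]
        intro h3
        exact hij (e.injective (Prod.ext h3 h1))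
      · rw [if_neg h1]
  have haev : ∀ w : GL (Fin n) F, (w : Matrix (Fin n) (Fin n) F) ^ 2 = z • (1 : Matrix (Fin n) (Fin n) F) →
      aeval (w : Matrix (Fin n) (Fin n) F) (X ^ 2 - C z : F[X]) = 0 := by
    intro w hw
    rw [map_sub, map_pow, aeval_X, aeval_C, hw, Algebra.algebraMap_eq_smul_one, sub_self]
  obtain ⟨g₁, hg₁, hg₁'⟩ := exists_conj_sl (irreducible_sq hz) x y (haev x hx) (haev y hy2)
  -- the form
  have hk0 : 0 < k := by omega
  let j0 : Fin k := ⟨0, hk0⟩
  obtain ⟨α, β, hαβ⟩ := Cfsg.Agent.ClassicalGeometry.Discriminant.exists_repr h2 z (-1)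
    ((gram Q).det * (-1) ^ (k - 1)) hz0 (neg_ne_zero.2 one_ne_zero)
  let p : Fin k → F × F := Function.update (fun _ => ((0 : F), (1 : F))) j0 (α, β)
  let S : Matrix (Fin n) (Fin n) F := Matrix.reindex e.symm e.symm (Matrix.blockDiagonal (fun j : Fin k => DD z (p j)))
  have hST : Sᵀ = S := by
    simp only [S]
    rw [Matrix.reindex_apply, Matrix.transpose_submatrix, Matrix.blockDiagonal_transpose]
    simp only [DD_transpose]
  have hSdet : S.det = (gram Q).det := by
    simp only [S]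
    rw [Matrix.det_reindex_self, Matrix.det_blockDiagonal]
    simp only [DD_det]
    have h1 : ∀ j : Fin k, z * (p j).1 ^ 2 - (p j).2 ^ 2 =
        Function.update (fun _ => (-1 : F)) j0 (z * α ^ 2 - β ^ 2) j := by
      intro j
      simp only [p]
      rcases eq_or_ne j j0 with h | h
      · subst h
        rw [Function.update_self, Function.update_self]
      · rw [Function.update_of_ne h, Function.update_of_ne h]
        ring
    rw [Finset.prod_congr rfl fun j _ => h1 j, Finset.prod_update_of_mem (Finset.mem_univ j0), Finset.prod_const,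
      Finset.card_sdiff_of_subset (Finset.subset_univ _), Finset.card_univ, Fintype.card_fin, Finset.card_singleton]
    have h3 : z * α ^ 2 - β ^ 2 = (gram Q).det * (-1) ^ (k - 1) := by
      rw [← hαβ]; ring
    rw [h3, mul_assoc, ← pow_add, Even.neg_one_pow ⟨k - 1, rfl⟩, mul_one]
  obtain ⟨g₂, hg₂, hg₂'⟩ := sim_of_matrix h2 hQ y S hST hSdet hz0 (by
    rw [hyY]
    simp only [Y, S]
    rw [Matrix.reindex_apply, Matrix.reindex_apply, Matrix.transpose_submatrix, Matrix.blockDiagonal_transpose,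
      Matrix.submatrix_mul_equiv, ← Matrix.blockDiagonal_mul, Matrix.submatrix_mul_equiv, ← Matrix.blockDiagonal_mul]
    simp only [JJ_DD]
    ext i j
    simp only [Matrix.submatrix_apply, Matrix.smul_apply, smul_eq_mul, Matrix.blockDiagonal_apply]
    split_ifs
    · rfl
    · rw [mul_zero])
  refine ⟨g₁ * g₂, by rw [Units.val_mul, Matrix.det_mul, hg₁, hg₂, one_mul], ?_⟩
  have h1 : (g₁ * g₂)⁻¹ * x * (g₁ * g₂) = g₂⁻¹ * y * g₂ := by rw [← hg₁']; group
  rw [h1]
  exact hg₂'

end Cfsg.Agent.H956.OrthSim2
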