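import Mathlib
import Cfsg.Agent.H956.DetIrr
import Cfsg.Agent.H956.DiagElt
import Cfsg.Agent.H956.SymMs
import Cfsg.Agent.H956.FieldArith

/-!
# Elements of order `r` in `PSL_r(q)`, `r = 3, 5`, `(q-1)_r = r`
-/

set_option autoImplicit false

namespace Cfsg.Agent.H956.SmallPrime

open Matrix Polynomial
open scoped MatrixGroups
open Cfsg.Agent.H956.Conj Cfsg.Agent.H956.DiagElt Cfsg.Agent.H956.DetIrr Cfsg.Agent.H956.FieldArith

variable {F : Type*} [Field F]

/-- a matrix with `r`-th power `s ^ r` is diagonalisable if there is a primitive `r`-th root of unity. -/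
theorem exists_of_pow_eq {ι : Type*} [Fintype ι] [DecidableEq ι] {r : ℕ} (hr : 0 < r) {ζ : F}
    (hζ : IsPrimitiveRoot ζ r) {s : F} (hs : s ≠ 0) (x : Matrix ι ι F)
    (hx : x ^ r = (s ^ r) • (1 : Matrix ι ι F)) :
    ∃ (S : GL ι F) (d : ι → F), x = (S : Matrix ι ι F) * Matrix.diagonal d * ((S⁻¹ : GL ι F) : Matrix ι ι F) ∧
      ∀ i, d i ^ r = s ^ r := by
  have htop : ⨆ a, Module.End.eigenspace (Matrix.toLin' x) a = ⊤ := by
    refine EigBasis.iSup_eigenspace_of_pow hr hζ _ hs ?_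
    rw [← Matrix.toLin'_pow, hx, map_smul, Matrix.toLin'_one]
    rfl
  obtain ⟨S, d, hSd⟩ := EigBasis.exists_conj_diagonal _ htop
  refine ⟨S, d, hSd, ?_⟩
  have hpow : ∀ k : ℕ, x ^ k = (S : Matrix ι ι F) * Matrix.diagonal (fun i => d i ^ k) *
      ((S⁻¹ : GL ι F) : Matrix ι ι F) := by
    intro k
    induction k with
    | zero => simp
    | succ k ih =>
      rw [pow_succ, ih]
      nth_rewrite 1 [hSd]
      calc (S : Matrix ι ι F) * Matrix.diagonal (fun i => d i ^ k) * ((S⁻¹ : GL ι F) : Matrix ι ι F) *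
          ((S : Matrix ι ι F) * Matrix.diagonal d * ((S⁻¹ : GL ι F) : Matrix ι ι F))
          = (S : Matrix ι ι F) * (Matrix.diagonal (fun i => d i ^ k) *
            (((S⁻¹ : GL ι F) : Matrix ι ι F) * (S : Matrix ι ι F)) * Matrix.diagonal d) *
              ((S⁻¹ : GL ι F) : Matrix ι ι F) := by simp only [Matrix.mul_assoc]
        _ = _ := by
          rw [inv_mul_self', Matrix.mul_one, Matrix.diagonal_mul_diagonal]
          simp only [pow_succ]
  have h3 : Matrix.diagonal (fun i => d i ^ r) = (s ^ r) • (1 : Matrix ι ι F) := by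
    calc Matrix.diagonal (fun i => d i ^ r)
        = (((S⁻¹ : GL ι F) : Matrix ι ι F) * (S : Matrix ι ι F)) * Matrix.diagonal (fun i => d i ^ r) *
          (((S⁻¹ : GL ι F) : Matrix ι ι F) * (S : Matrix ι ι F)) := by
          rw [inv_mul_self', Matrix.one_mul, Matrix.mul_one]
      _ = ((S⁻¹ : GL ι F) : Matrix ι ι F) * ((S : Matrix ι ι F) * Matrix.diagonal (fun i => d i ^ r) *
          ((S⁻¹ : GL ι F) : Matrix ι ι F)) * (S : Matrix ι ι F) := by simp only [Matrix.mul_assoc]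
      _ = _ := by rw [← hpow, hx, Matrix.mul_smul, Matrix.smul_mul, Matrix.mul_one, inv_mul_self']
  intro i
  have h5 := congrFun (congrFun h3 i) i
  simpa only [Matrix.diagonal_apply_eq, Matrix.smul_apply, Matrix.one_apply_eq, smul_eq_mul, mul_one] using h5

theorem det_conj_diagonal {ι : Type*} [Fintype ι] [DecidableEq ι] (S : GL ι F) (d : ι → F) :
    ((S : Matrix ι ι F) * Matrix.diagonal d * ((S⁻¹ : GL ι F) : Matrix ι ι F)).det = ∏ i, d i := by
  rw [Matrix.det_mul, Matrix.det_mul, mul_right_comm, ← Matrix.det_mul, mul_inv_self', Matrix.det_one, one_mul,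
    Matrix.det_diagonal]

/-- **`r ∈ {3, 5}`, `(q - 1)_r = r`: the elements of order `r` of `PSL_r(q)`.** -/
theorem main [Fintype F] {q : ℕ} (hq : Fintype.card F = q) {r : ℕ} [Fact r.Prime] (hr : r = 3 ∨ r = 5)
    (hv : padicValNat r (q - 1) = 1) {n : ℕ} (hn : n = r) (x : GL (Fin n) F)
    (hdet : (x : Matrix (Fin n) (Fin n) F).det = 1) {z : F}
    (hx : (x : Matrix (Fin n) (Fin n) F) ^ r = z • (1 : Matrix (Fin n) (Fin n) F)) :
    ∃ ζ : F, IsPrimitiveRoot ζ r ∧ ∃ (S : GL (Fin n) F) (a : Fin n → ZMod r) (π : Equiv.Perm (Fin n)) (c : ZMod r),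
      (x : Matrix (Fin n) (Fin n) F) = (S : Matrix (Fin n) (Fin n) F) *
        Matrix.diagonal (fun i => ζ ^ (a i).val) * ((S⁻¹ : GL (Fin n) F) : Matrix (Fin n) (Fin n) F) ∧
      (∀ i, π (π i) = i) ∧ ∀ i, a i + a (π i) = c := by
  classical
  subst hn
  have hrp : n.Prime := Fact.out
  have hodd : Odd n := by rcases hr with h | h <;> rw [h] <;> decide
  have hq1 : q - 1 ≠ 0 := by
    intro h
    rw [h] at hv
    simp at hv
  have hrq : n ∣ q - 1 := dvd_of_one_le_padicValNat (by omega)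
  obtain ⟨ζ, hζ⟩ := exists_prim (F := F) hq hrq
  -- `z` is an `r`-th power
  have hzpow : z ^ n = 1 := by
    have h1 := congrArg Matrix.det hx
    rw [Matrix.det_pow, hdet, one_pow, Matrix.det_smul, Matrix.det_one, mul_one, Fintype.card_fin] at h1
    exact h1.symm
  have hz0 : z ≠ 0 := by
    rintro rfl
    rw [zero_pow hrp.ne_zero] at hzpow
    exact zero_ne_one hzpow
  have hex : ∃ s : F, s ^ n = z := by
    by_contra hcon
    push Not at hcon
    have hirr : Irreducible (X ^ n - C z : F[X]) :=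
      (X_pow_sub_C_irreducible_iff_of_prime hrp).2 fun b hb => hcon b hb
    obtain ⟨k, hk1, hk2⟩ := det_of_pow_eq hrp.ne_zero hirr (x : Matrix (Fin n) (Fin n) F) hx
    have hk : k = 1 := by
      rw [Fintype.card_fin] at hk1
      have := hrp.pos
      nlinarith [Nat.eq_of_mul_eq_mul_left this (hk1.trans (mul_one n).symm)]
    rw [hk, pow_one, hdet, Even.neg_one_pow hodd.add_one, one_mul] at hk2
    exact hcon 1 (by rw [one_pow, hk2])
  obtain ⟨s, hs⟩ := hex
  have hs0 : s ≠ 0 := by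
    rintro rfl
    rw [zero_pow hrp.ne_zero] at hs
    exact hz0 hs.symm
  have hz1 : z = 1 := by
    have h1 : s ^ (n ^ 2) = 1 := by rw [pow_two, pow_mul, hs, hzpow]
    have h2 : s ^ (q - 1) = 1 := by rw [← hq]; exact FiniteField.pow_card_sub_one_eq_one s hs0
    have h3 := orderOf_dvd_of_pow_eq_one h1
    have h4 := orderOf_dvd_of_pow_eq_one h2
    obtain ⟨j, hj, hj'⟩ := (Nat.dvd_prime_pow hrp).1 h3
    have h5 : j ≤ 1 := by
      rw [hj', padicValNat_dvd_iff_le hq1, hv] at h4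
      exact h4
    have h6 : orderOf s ∣ n := by
      rw [hj']
      calc n ^ j ∣ n ^ 1 := pow_dvd_pow n h5
        _ = n := pow_one n
    rw [← hs]
    exact orderOf_dvd_iff_pow_eq_one.1 h6
  subst hz1
  obtain ⟨S, d, hSd, hd⟩ := exists_of_pow_eq hrp.pos hζ one_ne_zero (x : Matrix (Fin n) (Fin n) F) (by rw [hx, one_pow])
  have hne : NeZero n := ⟨hrp.ne_zero⟩
  have ha : ∀ i, ∃ a : ZMod n, ζ ^ a.val = d i := by
    intro i
    obtain ⟨j, hj, hj'⟩ := hζ.eq_pow_of_pow_eq_one (by rw [hd i, one_pow] : d i ^ n = 1)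
    exact ⟨(j : ZMod n), by rw [ZMod.val_natCast_of_lt hj, hj']⟩
  choose a ha using ha
  have hd' : d = fun i => ζ ^ (a i).val := funext fun i => (ha i).symm
  have hsum : ∑ i, a i = 0 := by
    have h1 := hdet
    rw [hSd, det_conj_diagonal, hd', Finset.prod_pow_eq_pow_sum] at h1
    have h2 := hζ.dvd_of_pow_eq_one _ h1
    rw [← ZMod.natCast_eq_zero_iff] at h2
    push_cast at h2
    simpa using h2
  obtain ⟨π, hπ, c, hc⟩ := SymMs.exists_involution hr a hsum
  exact ⟨ζ, hζ, S, a, π, c, by rw [hSd, hd'], hπ, hc⟩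

/-- product of two powers of a root of unity -/
theorem pow_val_mul {r : ℕ} [NeZero r] {ζ : F} (hζ : ζ ^ r = 1) (a b : ZMod r) :
    ζ ^ a.val * ζ ^ b.val = ζ ^ (a + b).val := by
  rw [ZMod.val_add, ← pow_add]
  nth_rewrite 1 [← Nat.mod_add_div (a.val + b.val) r]
  rw [pow_add, pow_mul, hζ, one_pow, mul_one]

end Cfsg.Agent.H956.SmallPrime
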