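import Mathlib
import Cfsg.Agent.H955.Sp
import Cfsg.Agent.H953.Rank
import Cfsg.Agent.H956.PrimeElt
import Cfsg.Agent.H956.EigDual
import Cfsg.Agent.H956.SmallPrime

/-!
# Elements of odd prime order of symplectic groups with a simple eigenvalue
-/

set_option autoImplicit false

namespace Cfsg.Agent.H956.SpElt

open Matrix Polynomial
open scoped MatrixGroups
open Cfsg.Agent.H956.EigMult Cfsg.Agent.H956.PrimeElt Cfsg.Agent.H956.Conj

section mult

variable {E : Type*} [DecidableEq E]

theorem sum_count_le (m : Multiset E) (S : Finset E) : ∑ y ∈ S, m.count y ≤ Multiset.card m := by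
  rw [← Multiset.toFinset_sum_count_eq m]
  apply Finset.sum_le_sum_of_ne_zero
  intro x _ hx
  rw [Multiset.mem_toFinset]
  by_contra h
  exact hx (Multiset.count_eq_zero_of_notMem h)

/-- equal multiplicities on `S` -/
theorem card_mul_add_le (m : Multiset E) (S : Finset E) (w : E) (hw : w ∉ S) (k : ℕ) (hk : ∀ y ∈ S, m.count y = k) :
    S.card * k + m.count w ≤ Multiset.card m := by
  have h1 := sum_count_le m (insert w S)
  rw [Finset.sum_insert hw, Finset.sum_congr rfl hk, Finset.sum_const, smul_eq_mul] at h1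
  omega

end mult

section elt

variable {ι : Type*} [Fintype ι] [DecidableEq ι] {F : Type*} [Field F]
variable (E : Type*) [Field E] [Algebra F E] [IsAlgClosed E]

/-- **the multiplicity of the eigenvalue one** of a matrix with `x ^ r = 1`. -/
theorem count_one {r : ℕ} (hr : (r : F) ≠ 0) (x : Matrix ι ι F) (hx : x ^ r = 1) [DecidableEq E] :
    (eig E x).count 1 + (x - 1).rank = Fintype.card ι := by
  classical
  obtain ⟨S, d, hSd, hd⟩ := exists_diag E hr one_ne_zero x (by rw [hx, one_smul])
  rw [eig_of_diag x S d hSd]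
  have h1 : (x - 1).rank = (Matrix.diagonal (fun i => d i - 1) : Matrix ι ι E).rank := by
    rw [← Cfsg.Agent.H953.rank_map (algebraMap F E) (x - 1)]
    have h2 : (x - 1).map (algebraMap F E) = (S : Matrix ι ι E) * Matrix.diagonal (fun i => d i - 1) *
        ((S⁻¹ : GL ι E) : Matrix ι ι E) := by
      rw [Matrix.map_sub _ (map_sub _), hSd, Matrix.map_one _ (map_zero _) (map_one _)]
      have h3 : (Matrix.diagonal (fun i => d i - 1) : Matrix ι ι E) = Matrix.diagonal d - 1 := by
        rw [← Matrix.diagonal_one, Matrix.diagonal_sub]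
      rw [h3, Matrix.mul_sub, Matrix.sub_mul, Matrix.mul_one, mul_inv_self']
    rw [h2, Matrix.rank_mul_eq_left_of_isUnit_det, Matrix.rank_mul_eq_right_of_isUnit_det]
    · exact (Matrix.isUnit_iff_isUnit_det _).1 S.isUnit
    · exact (Matrix.isUnit_iff_isUnit_det _).1 (S⁻¹).isUnit
  rw [h1, Matrix.rank_diagonal, Multiset.count_map]
  have h4 : Multiset.card (Multiset.filter (fun a => 1 = d a) (Finset.univ : Finset ι).val) =
      ((Finset.univ : Finset ι).filter (fun a => 1 = d a)).card := rfl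
  rw [h4, Fintype.card_subtype, ← Finset.card_univ, ← Finset.card_filter_add_card_filter_not
    (s := (Finset.univ : Finset ι)) (fun a => 1 = d a)]
  congr 2
  ext i
  simp only [Finset.mem_filter, Finset.mem_univ, true_and, sub_ne_zero]
  rw [ne_comm]

end elt

section sp

variable {F : Type*} [Field F] [Fintype F]
variable (E : Type*) [Field E] [Algebra F E] [IsAlgClosed E]

open Cfsg.Agent.H955 Cfsg.Agent.LieClassical.OrthFinite Cfsg.Agent.ClassicalGeometry.SympBasic

omit [Fintype F] in
/-- `xᵀ J x = J` for the elements of `spGL`. -/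
theorem transpose_mul_J {d : ℕ} {x : GL (Fin d ⊕ Fin d) F} (hx : x ∈ Cfsg.spGL d F) :
    (x : Matrix (Fin d ⊕ Fin d) (Fin d ⊕ Fin d) F)ᵀ * Matrix.J (Fin d) F *
      (x : Matrix (Fin d ⊕ Fin d) (Fin d ⊕ Fin d) F) = Matrix.J (Fin d) F := by
  have h : ∀ u v : Fin d ⊕ Fin d → F,
      ((x : Matrix (Fin d ⊕ Fin d) (Fin d ⊕ Fin d) F) *ᵥ u) ⬝ᵥ (Matrix.J (Fin d) F *ᵥ
        ((x : Matrix (Fin d ⊕ Fin d) (Fin d ⊕ Fin d) F) *ᵥ v)) = u ⬝ᵥ (Matrix.J (Fin d) F *ᵥ v) := hx
  ext i j
  have h1 := h (Pi.single i 1) (Pi.single j 1)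
  rw [← Matrix.vecMul_transpose, ← Matrix.dotProduct_mulVec, Matrix.mulVec_mulVec, Matrix.mulVec_mulVec] at h1
  simpa using h1

omit [Fintype F] in
/-- `J` as an invertible matrix -/
theorem exists_J (d : ℕ) : ∃ G : GL (Fin d ⊕ Fin d) F, (G : Matrix (Fin d ⊕ Fin d) (Fin d ⊕ Fin d) F) = Matrix.J (Fin d) F :=
  ⟨Matrix.GeneralLinearGroup.mk'' (Matrix.J (Fin d) F) (Matrix.isUnit_det_J (Fin d) F), rfl⟩

/-- **An element of order `r` of `Sp_{2d}(q)` with a simple eigenvalue and `c` eigenvalues `≠ 1`.** -/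
theorem exists_sp_elt [DecidableEq E] {q r d : ℕ} (hq : Fintype.card F = q) [Fact r.Prime] (hr : (r : F) ≠ 0) (hr2 : r ≠ 2)
    (hd : cc q r ≤ 2 * d) :
    ∃ x ∈ Cfsg.spGL d F, x ^ r = 1 ∧
      (eig E (x : Matrix (Fin d ⊕ Fin d) (Fin d ⊕ Fin d) F)).count 1 + cc q r = 2 * d ∧
      ∃ z ∈ eig E (x : Matrix (Fin d ⊕ Fin d) (Fin d ⊕ Fin d) F), z ≠ 1 ∧ IsPrimitiveRoot z r ∧
        (eig E (x : Matrix (Fin d ⊕ Fin d) (Fin d ⊕ Fin d) F)).count z = 1 := by
  have hrp : r.Prime := Fact.out
  have hNq : Nat.card F = q := by rw [Nat.card_eq_fintype_card, hq]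
  have hrq : ¬ r ∣ q := PrimeElt.not_dvd_card hq hr
  obtain ⟨T, hT, hTr, hTc⟩ := exists_min_sp (r := r) (by rw [hNq]; exact hrq) (isSp_sympBilin d F)
    (by rw [hNq, finrank_symp]; exact hd)
  rw [hNq] at hTc
  let x : GL (Fin d ⊕ Fin d) F := (glEquiv (Fin d ⊕ Fin d) F).symm T
  have hxT : glEquiv (Fin d ⊕ Fin d) F x = T := MulEquiv.apply_symm_apply _ _
  have hxT' : ∀ v, (x : Matrix (Fin d ⊕ Fin d) (Fin d ⊕ Fin d) F) *ᵥ v = T v := by
    intro v
    rw [← hxT]
    rfl
  have hx : x ∈ Cfsg.spGL d F := mem_spGL_iff.2 (by rw [hxT]; exact hT)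
  have hxr : x ^ r = 1 := by
    simp only [x]
    rw [← map_pow, hTr, map_one]
  have hxr' : (x : Matrix (Fin d ⊕ Fin d) (Fin d ⊕ Fin d) F) ^ r = 1 := by
    rw [← Units.val_pow_eq_pow_val, hxr, Units.val_one]
  have hrank : ((x : Matrix (Fin d ⊕ Fin d) (Fin d ⊕ Fin d) F) - 1).rank = cc q r := by
    rw [← hTc, Matrix.rank]
    have h1 : Matrix.mulVecLin ((x : Matrix (Fin d ⊕ Fin d) (Fin d ⊕ Fin d) F) - 1) =
        (T : (Fin d ⊕ Fin d → F) →ₗ[F] (Fin d ⊕ Fin d → F)) - LinearMap.id := by
      apply LinearMap.ext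
      intro v
      rw [Matrix.mulVecLin_apply, Matrix.sub_mulVec, Matrix.one_mulVec, hxT']
      rfl
    rw [h1]
    rfl
  set m := eig E (x : Matrix (Fin d ⊕ Fin d) (Fin d ⊕ Fin d) F) with hm
  have hcard : Fintype.card (Fin d ⊕ Fin d) = 2 * d := by
    rw [Fintype.card_sum, Fintype.card_fin]; ring
  have hcount : m.count 1 + cc q r = 2 * d := by
    rw [← hrank, ← hcard]
    exact count_one E hr _ hxr'
  have hcc : 0 < cc q r := cc_pos hrq
  have hmc : Multiset.card m = 2 * d := by rw [hm, card_eig, hcard]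
  have hmr : ∀ z ∈ m, z ^ r = 1 := by
    intro z hz
    have := pow_eq_of_mem_eig hr one_ne_zero (x : Matrix (Fin d ⊕ Fin d) (Fin d ⊕ Fin d) F)
      (by rw [hxr', one_smul]) hz
    rwa [map_one] at this
  -- an eigenvalue `≠ 1`
  obtain ⟨z, hz, hz1⟩ : ∃ z ∈ m, z ≠ 1 := by
    by_contra hcon
    push Not at hcon
    have h1 : m = Multiset.replicate (Multiset.card m) 1 := Multiset.eq_replicate_card.2 hcon
    have h2 : m.count 1 = Multiset.card m := by
      rw [h1]; simp
    omega
  have hz0 : z ≠ 0 := by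
    rintro rfl
    have := hmr 0 hz
    rw [zero_pow hrp.ne_zero] at this
    exact zero_ne_one this
  have hzp : IsPrimitiveRoot z r := by
    have h2 : orderOf z = r := orderOf_eq_prime (hmr z hz) hz1
    rw [← h2]
    exact IsPrimitiveRoot.orderOf z
  -- Frobenius and inversion
  have hfrob : ∀ y, m.count (y ^ q) = m.count y := by
    intro y
    have hinj : Function.Injective (fun z : E => z ^ q) := by
      obtain ⟨p, hp⟩ := CharP.exists F
      have := hp
      have : Fact p.Prime := ⟨CharP.char_is_prime F p⟩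
      obtain ⟨⟨n, hn⟩, hn2⟩ := FiniteField.card F p
      have : CharP E p := charP_of_injective_algebraMap (algebraMap F E).injective p
      have h3 : (fun z : E => z ^ q) = ⇑(iterateFrobenius E p n) := by
        ext z
        rw [iterateFrobenius_def, ← hq, hn2.2]
        rfl
      rw [h3]
      exact (iterateFrobenius E p n).injective
    have h1 := eig_frob (E := E) hq (x : Matrix (Fin d ⊕ Fin d) (Fin d ⊕ Fin d) F)
    rw [← hm] at h1
    conv_lhs => rw [← h1]
    exact Multiset.count_map_eq_count' (fun z : E => z ^ q) m hinj y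
  have hfrob' : ∀ j y, m.count (y ^ (q ^ j)) = m.count y := by
    intro j
    induction j with
    | zero => intro y; rw [pow_zero, pow_one]
    | succ j ih => intro y; rw [pow_succ, pow_mul, hfrob, ih]
  have hinv : ∀ y, m.count y⁻¹ = m.count y := by
    intro y
    obtain ⟨G, hG⟩ := exists_J (F := F) d
    have h1 := eig_dual (E := E) hr one_ne_zero _ _ G (by rw [hxr', one_smul]) one_ne_zero
      (by rw [hG, transpose_mul_J hx, one_smul])
    rw [← hm] at h1
    have h2 : (fun z : E => algebraMap F E 1 / z) = fun z => z⁻¹ := by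
      ext z
      rw [map_one, one_div]
    rw [h2] at h1
    conv_lhs => rw [h1]
    exact Multiset.count_map_eq_count' (fun z : E => z⁻¹) m inv_injective y
  let S : Finset E := (Finset.range (orderOf (q : ZMod r))).image (fun j => z ^ (q ^ j))
  have hS : S.card = orderOf (q : ZMod r) := by
    rw [Finset.card_image_of_injOn, Finset.card_range]
    intro j hj l hl hjl
    simp only [Finset.coe_range, Set.mem_Iio] at hj hl
    exact pow_inj_of_prim hzp hj hl hjl
  have hSk : ∀ y ∈ S, m.count y = m.count z := by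
    intro y hy
    obtain ⟨j, -, rfl⟩ := Finset.mem_image.1 hy
    exact hfrob' j z
  have hS1 : (1 : E) ∉ S := by
    intro h
    obtain ⟨j, -, hj⟩ := Finset.mem_image.1 h
    have h1 := hzp.dvd_of_pow_eq_one _ hj
    exact hrq (hrp.dvd_of_dvd_pow h1)
  -- the final count
  have hfin : cc q r * m.count z + m.count 1 ≤ 2 * d := by
    rw [← hmc]
    by_cases he : Even (orderOf (q : ZMod r))
    · have h1 : cc q r = S.card := by rw [hS]; unfold cc; rw [if_pos he]
      rw [h1]
      exact card_mul_add_le m S 1 hS1 _ hSk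
    · have hdisj : Disjoint S (S.image (fun y => y⁻¹)) := by
        rw [Finset.disjoint_left]
        intro y hy hy'
        obtain ⟨j, -, rfl⟩ := Finset.mem_image.1 hy
        obtain ⟨y', hy'', hyy⟩ := Finset.mem_image.1 hy'
        obtain ⟨k, -, rfl⟩ := Finset.mem_image.1 hy''
        have h1 : z ^ (q ^ j + q ^ k) = 1 := by
          rw [pow_add, ← hyy, inv_mul_cancel₀ (pow_ne_zero _ hz0)]
        have h3 := hzp.dvd_of_pow_eq_one _ h1
        rw [← ZMod.natCast_eq_zero_iff] at h3
        push_cast at h3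
        have h4 : (q : ZMod r) ^ j = -(q : ZMod r) ^ k := by linear_combination h3
        have h5 : ∀ l, ((q : ZMod r) ^ l) ^ orderOf (q : ZMod r) = 1 := by
          intro l
          rw [← pow_mul, mul_comm, pow_mul, pow_orderOf_eq_one, one_pow]
        have h6 := h5 j
        rw [h4, Odd.neg_pow (Nat.not_even_iff_odd.1 he), h5] at h6
        have h2 : ((2 : ℕ) : ZMod r) = 0 := by
          push_cast
          linear_combination -h6
        rw [ZMod.natCast_eq_zero_iff] at h2
        exact hr2 ((Nat.prime_dvd_prime_iff_eq hrp Nat.prime_two).1 h2)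
      have h1 : cc q r = (S ∪ S.image (fun y => y⁻¹)).card := by
        rw [Finset.card_union_of_disjoint hdisj, Finset.card_image_of_injective _ inv_injective, hS]
        unfold cc
        rw [if_neg he]
        ring
      rw [h1]
      refine card_mul_add_le m _ 1 ?_ _ ?_
      · intro h
        rcases Finset.mem_union.1 h with h | h
        · exact hS1 h
        · obtain ⟨y, hy, hy'⟩ := Finset.mem_image.1 h
          rw [inv_eq_one] at hy'
          exact hS1 (hy' ▸ hy)
      · intro y hy
        rcases Finset.mem_union.1 hy with h | h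
        · exact hSk y h
        · obtain ⟨y', hy', rfl⟩ := Finset.mem_image.1 h
          rw [hinv]
          exact hSk y' hy'
  refine ⟨x, hx, hxr, hcount, z, hz, hz1, hzp, ?_⟩
  have hpos : 1 ≤ m.count z := Multiset.one_le_count_iff_mem.2 hz
  have h7 : cc q r * m.count z ≤ cc q r * 1 := by omega
  exact le_antisymm (Nat.le_of_mul_le_mul_left h7 hcc) hpos

end sp

end Cfsg.Agent.H956.SpElt
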