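import Mathlib
import Cfsg.Prelude.Def_GeometricClasses
import Cfsg.Agent.H956.PrimeElt

/-!
# Elements of prime order in stabilisers of tensor decompositions

Eigenvalues of elements of `tensorProductSubgroup n₁ n₂ e P`.
-/

set_option autoImplicit false

namespace Cfsg.Agent.H956.TensorElt

open Matrix Polynomial
open scoped Kronecker MatrixGroups
open Cfsg.Agent.H956.EigMult Cfsg.Agent.H956.PrimeElt

section count

variable {E : Type*} [Field E] {n₁ n₂ : ℕ}

/-- the product multiset -/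
noncomputable def prodMs (α : Fin n₁ → E) (β : Fin n₂ → E) : Multiset E :=
  (Finset.univ : Finset (Fin n₁ × Fin n₂)).val.map (fun p => α p.1 * β p.2)

theorem count_prodMs [DecidableEq E] (α : Fin n₁ → E) (β : Fin n₂ → E) (z : E) :
    (prodMs α β).count z = ∑ l, (Finset.univ.filter (fun k => α k * β l = z)).card := by
  unfold prodMs
  rw [Multiset.count_map]
  have h1 : Multiset.card (Multiset.filter (fun a : Fin n₁ × Fin n₂ => z = α a.1 * β a.2)
      (Finset.univ : Finset (Fin n₁ × Fin n₂)).val) =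
      ((Finset.univ : Finset (Fin n₁ × Fin n₂)).filter (fun a => z = α a.1 * β a.2)).card := rfl
  rw [h1, Finset.card_eq_sum_card_fiberwise (f := Prod.snd) (t := Finset.univ) (fun _ _ => Finset.mem_univ _)]
  refine Finset.sum_congr rfl fun l _ => ?_
  refine Finset.card_bij' (fun a _ => a.1) (fun k _ => (k, l)) ?_ ?_ ?_ ?_
  · intro a ha
    simp only [Finset.mem_filter, Finset.mem_univ, true_and] at ha ⊢
    rw [← ha.2, ← ha.1]
  · intro k hk
    simp only [Finset.mem_filter, Finset.mem_univ, true_and] at hk ⊢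
    exact ⟨hk.symm, trivial⟩
  · intro a ha
    simp only [Finset.mem_filter, Finset.mem_univ, true_and] at ha
    ext <;> simp [ha.2]
  · intro k hk
    rfl

/-- if `α` is constant, multiplicities are divisible by `n₁`. -/
theorem dvd_count_of_const [DecidableEq E] (α : Fin n₁ → E) (β : Fin n₂ → E) (a : E) (h : ∀ k, α k = a) (z : E) :
    n₁ ∣ (prodMs α β).count z := by
  rw [count_prodMs]
  refine Finset.dvd_sum fun l _ => ?_
  by_cases hz : a * β l = z
  · have : (Finset.univ.filter (fun k => α k * β l = z)) = Finset.univ := by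
      ext k; simp [h k, hz]
    rw [this]
    simp
  · have : (Finset.univ.filter (fun k => α k * β l = z)) = ∅ := by
      ext k; simp [h k, hz]
    rw [this]
    simp

/-- if `α` takes all the values in `S` then for every `w` at least `n₂ (|S| - 1)` products are not `w`. -/
theorem count_add_le [DecidableEq E] (α : Fin n₁ → E) (β : Fin n₂ → E) (hβ : ∀ l, β l ≠ 0) (S : Finset E)
    (hS : ∀ z ∈ S, ∃ k, α k = z) (w : E) :
    (prodMs α β).count w + n₂ * (S.card - 1) ≤ n₁ * n₂ := by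
  rw [count_prodMs]
  have key : ∀ l : Fin n₂, (Finset.univ.filter (fun k => α k * β l = w)).card + (S.card - 1) ≤ n₁ := by
    intro l
    have h1 : (Finset.univ.filter (fun k => α k * β l = w)).card +
        (Finset.univ.filter (fun k => ¬ α k * β l = w)).card = n₁ := by
      rw [Finset.card_filter_add_card_filter_not]
      simp
    have h2 : S.erase (w / β l) ⊆ (Finset.univ.filter (fun k => ¬ α k * β l = w)).image α := by
      intro z hz
      obtain ⟨hz1, hz2⟩ := Finset.mem_erase.1 hz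
      obtain ⟨k, hk⟩ := hS z hz2
      refine Finset.mem_image.2 ⟨k, ?_, hk⟩
      simp only [Finset.mem_filter, Finset.mem_univ, true_and]
      intro h3
      apply hz1
      rw [← hk, eq_div_iff (hβ l)]
      exact h3
    have h3 := (Finset.card_le_card h2).trans Finset.card_image_le
    have h4 := Finset.pred_card_le_card_erase (s := S) (a := w / β l)
    omega
  have h5 := Finset.sum_le_sum (s := Finset.univ) (fun l _ => key l)
  rw [Finset.sum_add_distrib] at h5
  simp only [Finset.sum_const, Finset.card_univ, Fintype.card_fin, smul_eq_mul] at h5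
  calc _ ≤ n₂ * n₁ := h5
    _ = n₁ * n₂ := mul_comm _ _

end count

section tens

variable {ι : Type} [Fintype ι] [DecidableEq ι] {F : Type*} [Field F]

/-- membership in the stabiliser of a tensor decomposition -/
theorem mem_tensor_iff {n₁ n₂ : ℕ} (e : ι ≃ Fin n₁ × Fin n₂) (P : GL ι F) (y : GL ι F) :
    y ∈ Cfsg.Geo.tensorProductSubgroup n₁ n₂ e P ↔
      ∃ (a : GL (Fin n₁) F) (b : GL (Fin n₂) F), (y : Matrix ι ι F) = (P : Matrix ι ι F) *
        Matrix.reindex e.symm e.symm ((a : Matrix (Fin n₁) (Fin n₁) F) ⊗ₖ (b : Matrix (Fin n₂) (Fin n₂) F)) *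
        ((P⁻¹ : GL ι F) : Matrix ι ι F) := by
  unfold Cfsg.Geo.tensorProductSubgroup
  constructor
  · rintro ⟨z, ⟨w, ⟨a, b, hw⟩, rfl⟩, rfl⟩
    refine ⟨a, b, ?_⟩
    rw [← hw]
    rfl
  · rintro ⟨a, b, h⟩
    let w : GL (Fin n₁ × Fin n₂) F := ⟨(a : Matrix (Fin n₁) (Fin n₁) F) ⊗ₖ (b : Matrix (Fin n₂) (Fin n₂) F),
      ((a⁻¹ : GL (Fin n₁) F) : Matrix (Fin n₁) (Fin n₁) F) ⊗ₖ ((b⁻¹ : GL (Fin n₂) F) : Matrix (Fin n₂) (Fin n₂) F),
      by rw [← Matrix.mul_kronecker_mul, ← Units.val_mul, ← Units.val_mul, mul_inv_cancel, mul_inv_cancel,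
          Units.val_one, Units.val_one, Matrix.one_kronecker_one],
      by rw [← Matrix.mul_kronecker_mul, ← Units.val_mul, ← Units.val_mul, inv_mul_cancel, inv_mul_cancel,
          Units.val_one, Units.val_one, Matrix.one_kronecker_one]⟩
    refine ⟨Cfsg.Geo.glReindex e.symm w, ⟨w, ⟨a, b, rfl⟩, rfl⟩, ?_⟩
    ext1
    rw [h]
    rfl

/-- an element of the stabiliser of the tensor decomposition with given factors -/
theorem exists_mem_tensor {n₁ n₂ : ℕ} (e : ι ≃ Fin n₁ × Fin n₂) (P : GL ι F) (a : GL (Fin n₁) F) (b : GL (Fin n₂) F) :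
    ∃ y ∈ Cfsg.Geo.tensorProductSubgroup n₁ n₂ e P, (y : Matrix ι ι F) = (P : Matrix ι ι F) *
        Matrix.reindex e.symm e.symm ((a : Matrix (Fin n₁) (Fin n₁) F) ⊗ₖ (b : Matrix (Fin n₂) (Fin n₂) F)) *
        ((P⁻¹ : GL ι F) : Matrix ι ι F) := by
  let w : GL (Fin n₁ × Fin n₂) F := ⟨(a : Matrix (Fin n₁) (Fin n₁) F) ⊗ₖ (b : Matrix (Fin n₂) (Fin n₂) F),
    ((a⁻¹ : GL (Fin n₁) F) : Matrix (Fin n₁) (Fin n₁) F) ⊗ₖ ((b⁻¹ : GL (Fin n₂) F) : Matrix (Fin n₂) (Fin n₂) F),
    by rw [← Matrix.mul_kronecker_mul, ← Units.val_mul, ← Units.val_mul, mul_inv_cancel, mul_inv_cancel,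
        Units.val_one, Units.val_one, Matrix.one_kronecker_one],
    by rw [← Matrix.mul_kronecker_mul, ← Units.val_mul, ← Units.val_mul, inv_mul_cancel, inv_mul_cancel,
        Units.val_one, Units.val_one, Matrix.one_kronecker_one]⟩
  refine ⟨MulAut.conj P (Cfsg.Geo.glReindex e.symm w), ?_, rfl⟩
  exact (mem_tensor_iff e P _).2 ⟨a, b, rfl⟩

/-- A Kronecker product which is a nonzero scalar has scalar factors. -/
theorem scalar_of_kronecker {n₁ n₂ : ℕ} (h₁ : 0 < n₁) (h₂ : 0 < n₂) (A : Matrix (Fin n₁) (Fin n₁) F)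
    (B : Matrix (Fin n₂) (Fin n₂) F) {s : F} (hs : s ≠ 0) (h : A ⊗ₖ B = s • (1 : Matrix (Fin n₁ × Fin n₂) _ F)) :
    ∃ a b : F, a * b = s ∧ A = a • (1 : Matrix (Fin n₁) (Fin n₁) F) ∧ B = b • (1 : Matrix (Fin n₂) (Fin n₂) F) := by
  have hent : ∀ i j k l, A i j * B k l = if (i = j ∧ k = l) then s else 0 := by
    intro i j k l
    have := congrFun (congrFun h (i, k)) (j, l)
    rw [Matrix.kroneckerMap_apply, Matrix.smul_apply, Matrix.one_apply] at this
    rw [this]
    simp [Prod.ext_iff]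
  let i0 : Fin n₁ := ⟨0, h₁⟩
  let k0 : Fin n₂ := ⟨0, h₂⟩
  have h0 : A i0 i0 * B k0 k0 = s := by rw [hent]; simp
  have hA : A i0 i0 ≠ 0 := by intro hz; rw [hz, zero_mul] at h0; exact hs h0.symm
  have hB : B k0 k0 ≠ 0 := by intro hz; rw [hz, mul_zero] at h0; exact hs h0.symm
  refine ⟨A i0 i0, B k0 k0, h0, ?_, ?_⟩
  · ext i j
    apply mul_right_cancel₀ hB
    rw [hent, Matrix.smul_apply, Matrix.one_apply, ← h0]
    by_cases hij : i = j <;> simp [hij]
  · ext k l
    apply mul_left_cancel₀ hA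
    rw [hent, Matrix.smul_apply, Matrix.one_apply, ← h0]
    by_cases hkl : k = l <;> simp [hkl]

variable [Fintype F] (E : Type*) [Field E] [Algebra F E] [IsAlgClosed E]

/-- **Eigenvalues of the elements with a scalar power in the stabiliser of a tensor decomposition.** -/
theorem exists_eig_of_conj {q : ℕ} (hq : Fintype.card F = q) {n₁ n₂ : ℕ} (h₁ : 0 < n₁) (h₂ : 0 < n₂)
    (e : ι ≃ Fin n₁ × Fin n₂) (P g x : GL ι F) {r : ℕ} (hr : (r : F) ≠ 0) {s : F}
    (hx : (x : Matrix ι ι F) ^ r = s • (1 : Matrix ι ι F))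
    (hg : g⁻¹ * x * g ∈ Cfsg.Geo.tensorProductSubgroup n₁ n₂ e P) :
    ∃ (α : Fin n₁ → E) (β : Fin n₂ → E) (a b : F), a * b = s ∧ s ≠ 0 ∧ (∀ k, α k ^ r = algebraMap F E a) ∧
      (∀ l, β l ^ r = algebraMap F E b) ∧ eig E (x : Matrix ι ι F) = prodMs α β ∧
      (Finset.univ.val.map α).map (fun z => z ^ q) = Finset.univ.val.map α ∧
      (Finset.univ.val.map β).map (fun z => z ^ q) = Finset.univ.val.map β := by
  obtain ⟨A, B, hAB⟩ := (mem_tensor_iff e P _).1 hg
  have hι : Nonempty ι := ⟨e.symm (⟨0, h₁⟩, ⟨0, h₂⟩)⟩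
  have hs : s ≠ 0 := by
    rintro rfl
    rw [zero_smul] at hx
    have h1 : ((x ^ r : GL ι F) : Matrix ι ι F) = 0 := by rw [Units.val_pow_eq_pow_val]; exact hx
    have h2 := (x ^ r).isUnit
    rw [h1] at h2
    exact not_isUnit_zero h2
  -- the Kronecker product has the same power
  have hpow : ((A : Matrix (Fin n₁) (Fin n₁) F) ⊗ₖ (B : Matrix (Fin n₂) (Fin n₂) F)) ^ r =
      s • (1 : Matrix (Fin n₁ × Fin n₂) (Fin n₁ × Fin n₂) F) := by
    have h3 : ((g⁻¹ * x * g : GL ι F) : Matrix ι ι F) ^ r = s • (1 : Matrix ι ι F) := by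
      have h4 : (g⁻¹ * x * g) ^ r = g⁻¹ * x ^ r * g := by
        have := conj_pow (a := g⁻¹) (b := x) (i := r)
        rwa [inv_inv] at this
      rw [← Units.val_pow_eq_pow_val, h4, Units.val_mul, Units.val_mul, Units.val_pow_eq_pow_val, hx,
        Matrix.mul_smul, Matrix.smul_mul, Matrix.mul_one, ← Units.val_mul, inv_mul_cancel, Units.val_one]
    rw [hAB] at h3
    have h5 : ∀ k : ℕ, ((P : Matrix ι ι F) *
        Matrix.reindex e.symm e.symm ((A : Matrix (Fin n₁) (Fin n₁) F) ⊗ₖ (B : Matrix (Fin n₂) (Fin n₂) F)) *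
        ((P⁻¹ : GL ι F) : Matrix ι ι F)) ^ k = (P : Matrix ι ι F) *
        Matrix.reindex e.symm e.symm (((A : Matrix (Fin n₁) (Fin n₁) F) ⊗ₖ (B : Matrix (Fin n₂) (Fin n₂) F)) ^ k) *
        ((P⁻¹ : GL ι F) : Matrix ι ι F) := by
      intro k
      have hre : ∀ M : Matrix (Fin n₁ × Fin n₂) (Fin n₁ × Fin n₂) F,
        Matrix.reindex e.symm e.symm M = Matrix.reindexAlgEquiv F F e.symm M := fun _ => rfl
      rw [hre, hre, map_pow]
      induction k with
      | zero =>
        rw [pow_zero, pow_zero, Matrix.mul_one, ← Units.val_mul, mul_inv_cancel, Units.val_one]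
      | succ k ih =>
        rw [pow_succ, ih, pow_succ]
        have hPP : ((P⁻¹ : GL ι F) : Matrix ι ι F) * (P : Matrix ι ι F) = 1 := by
          rw [← Units.val_mul, inv_mul_cancel, Units.val_one]
        generalize (Matrix.reindexAlgEquiv F F e.symm) ((A : Matrix (Fin n₁) (Fin n₁) F) ⊗ₖ
          (B : Matrix (Fin n₂) (Fin n₂) F)) = M
        calc (P : Matrix ι ι F) * M ^ k * ((P⁻¹ : GL ι F) : Matrix ι ι F) *
              ((P : Matrix ι ι F) * M * ((P⁻¹ : GL ι F) : Matrix ι ι F))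
            = (P : Matrix ι ι F) * M ^ k * (((P⁻¹ : GL ι F) : Matrix ι ι F) * (P : Matrix ι ι F)) * M *
              ((P⁻¹ : GL ι F) : Matrix ι ι F) := by simp only [Matrix.mul_assoc]
          _ = _ := by rw [hPP]; simp only [Matrix.mul_assoc, Matrix.one_mul, Matrix.mul_one]
    rw [h5] at h3
    have h6 : Matrix.reindexAlgEquiv F F e.symm
        (((A : Matrix (Fin n₁) (Fin n₁) F) ⊗ₖ (B : Matrix (Fin n₂) (Fin n₂) F)) ^ r) = s • (1 : Matrix ι ι F) := by
      have hPP : ((P⁻¹ : GL ι F) : Matrix ι ι F) * (P : Matrix ι ι F) = 1 := by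
        rw [← Units.val_mul, inv_mul_cancel, Units.val_one]
      have h7 : ((P⁻¹ : GL ι F) : Matrix ι ι F) * ((P : Matrix ι ι F) *
        Matrix.reindex e.symm e.symm (((A : Matrix (Fin n₁) (Fin n₁) F) ⊗ₖ (B : Matrix (Fin n₂) (Fin n₂) F)) ^ r) *
        ((P⁻¹ : GL ι F) : Matrix ι ι F)) * (P : Matrix ι ι F) =
          ((P⁻¹ : GL ι F) : Matrix ι ι F) * (s • (1 : Matrix ι ι F)) * (P : Matrix ι ι F) := by rw [h3]
      rw [Matrix.mul_smul, Matrix.smul_mul, Matrix.mul_one, hPP] at h7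
      rw [← h7]
      change Matrix.reindex e.symm e.symm _ = _
      generalize Matrix.reindex e.symm e.symm (((A : Matrix (Fin n₁) (Fin n₁) F) ⊗ₖ
        (B : Matrix (Fin n₂) (Fin n₂) F)) ^ r) = M
      calc M = (((P⁻¹ : GL ι F) : Matrix ι ι F) * (P : Matrix ι ι F)) * M *
            (((P⁻¹ : GL ι F) : Matrix ι ι F) * (P : Matrix ι ι F)) := by rw [hPP, Matrix.one_mul, Matrix.mul_one]
        _ = _ := by simp only [Matrix.mul_assoc]
    have h8 : Matrix.reindexAlgEquiv F F e.symm (s • (1 : Matrix (Fin n₁ × Fin n₂) (Fin n₁ × Fin n₂) F)) =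
        s • (1 : Matrix ι ι F) := by rw [map_smul, map_one]
    exact (Matrix.reindexAlgEquiv F F e.symm).injective (h6.trans h8.symm)
  have hpow2 : ((A : Matrix (Fin n₁) (Fin n₁) F) ^ r) ⊗ₖ ((B : Matrix (Fin n₂) (Fin n₂) F) ^ r) =
      s • (1 : Matrix (Fin n₁ × Fin n₂) (Fin n₁ × Fin n₂) F) := by
    rw [← hpow]
    have : ∀ k : ℕ, ((A : Matrix (Fin n₁) (Fin n₁) F) ^ k) ⊗ₖ ((B : Matrix (Fin n₂) (Fin n₂) F) ^ k) =
      ((A : Matrix (Fin n₁) (Fin n₁) F) ⊗ₖ (B : Matrix (Fin n₂) (Fin n₂) F)) ^ k := by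
      intro k
      induction k with
      | zero => simp [Matrix.one_kronecker_one]
      | succ k ih => rw [pow_succ, pow_succ, pow_succ, Matrix.mul_kronecker_mul, ih]
    exact this r
  obtain ⟨a, b, hab, hAa, hBb⟩ := scalar_of_kronecker h₁ h₂ _ _ hs hpow2
  have ha : a ≠ 0 := by rintro rfl; rw [zero_mul] at hab; exact hs hab.symm
  have hb : b ≠ 0 := by rintro rfl; rw [mul_zero] at hab; exact hs hab.symm
  obtain ⟨S, α, hSα, hα⟩ := exists_diag E hr ha _ hAa
  obtain ⟨T, β, hTβ, hβ⟩ := exists_diag E hr hb _ hBb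
  refine ⟨α, β, a, b, hab, hs, hα, hβ, ?_, ?_, ?_⟩
  · rw [← eig_conj' g (x : Matrix ι ι F)]
    have h9 : ((g⁻¹ : GL ι F) : Matrix ι ι F) * (x : Matrix ι ι F) * (g : Matrix ι ι F) =
        ((g⁻¹ * x * g : GL ι F) : Matrix ι ι F) := by rw [Units.val_mul, Units.val_mul]
    rw [h9, hAB, eig_conj, eig_reindex, eig_kronecker _ _ S α T β hSα hTβ]
    rfl
  · rw [← eig_of_diag _ S α hSα, eig_frob hq]
  · rw [← eig_of_diag _ T β hTβ, eig_frob hq]

/-- **First obstruction**: an eigenvalue whose multiplicity is not divisible by `n₁`, and an eigenvalue `w` with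
multiplicity `> n₁ n₂ - n₂`. -/
theorem false_of_conj {q : ℕ} (hq : Fintype.card F = q) {n₁ n₂ : ℕ} (h₁ : 0 < n₁) (h₂ : 0 < n₂)
    (e : ι ≃ Fin n₁ × Fin n₂) (P g x : GL ι F) {r : ℕ} (hr : (r : F) ≠ 0) {s : F}
    (hx : (x : Matrix ι ι F) ^ r = s • (1 : Matrix ι ι F))
    (hg : g⁻¹ * x * g ∈ Cfsg.Geo.tensorProductSubgroup n₁ n₂ e P) [DecidableEq E] (z w : E)
    (hz : ¬ n₁ ∣ (eig E (x : Matrix ι ι F)).count z)
    (hw : n₁ * n₂ < (eig E (x : Matrix ι ι F)).count w + n₂) : False := by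
  obtain ⟨α, β, a, b, hab, hs, hα, hβ, heig, -, -⟩ := exists_eig_of_conj E hq h₁ h₂ e P g x hr hx hg
  rw [heig] at hz hw
  by_cases hc : ∀ k, α k = α ⟨0, h₁⟩
  · exact hz (dvd_count_of_const α β _ hc z)
  · push Not at hc
    obtain ⟨k, hk⟩ := hc
    have hb : b ≠ 0 := by rintro rfl; rw [mul_zero] at hab; exact hs hab.symm
    have hr0 : r ≠ 0 := by rintro rfl; simp at hr
    have hβ0 : ∀ l, β l ≠ 0 := by
      intro l hl
      have := hβ l
      rw [hl, zero_pow hr0] at this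
      exact hb ((algebraMap F E).injective (by rw [← this, map_zero]))
    have := count_add_le α β hβ0 {α k, α ⟨0, h₁⟩} (by
      intro y hy
      rcases Finset.mem_insert.1 hy with h | h
      · exact ⟨k, h.symm⟩
      · exact ⟨_, (Finset.mem_singleton.1 h).symm⟩) w
    rw [Finset.card_pair hk] at this
    omega

/-- an `r`-th root in `F` when `r` is prime to `q - 1`. -/
theorem exists_root {q r : ℕ} (hq : Fintype.card F = q) [Fact r.Prime] (h1 : orderOf (q : ZMod r) ≠ 1) (a : F)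
    (ha : a ≠ 0) : ∃ t : F, t ^ r = a ∧ t ≠ 0 := by
  have hinj : Function.Injective (fun u : Fˣ => u ^ r) := by
    intro u v huv
    have h2 : (u / v) ^ r = 1 := by
      simp only at huv
      rw [div_pow, huv, div_self']
    have h3 : ((u / v : Fˣ) : F) ^ r = 1 := by
      rw [← Units.val_pow_eq_pow_val, h2, Units.val_one]
    have h4 := det_eq_one_of_pow hq h1 h3
    have h5 : u / v = 1 := Units.ext (by rw [h4, Units.val_one])
    exact div_eq_one.1 h5
  have hsurj := Finite.surjective_of_injective hinj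
  obtain ⟨u, hu⟩ := hsurj (Units.mk0 a ha)
  refine ⟨u, ?_, u.ne_zero⟩
  have := congrArg Units.val hu
  simpa using this

/-- **Second obstruction**, `i = ord_r(q) ≥ 2`: an eigenvalue whose multiplicity is not divisible by `n₁`, and `1` has
multiplicity `> n₁ n₂ - n₂ (i - 1)`. -/
theorem false_of_conj_orbit {q : ℕ} (hq : Fintype.card F = q) {n₁ n₂ : ℕ} (h₁ : 0 < n₁) (h₂ : 0 < n₂)
    (e : ι ≃ Fin n₁ × Fin n₂) (P g x : GL ι F) {r : ℕ} [Fact r.Prime] (hr : (r : F) ≠ 0)
    (h1 : orderOf (q : ZMod r) ≠ 1) (hx : (x : Matrix ι ι F) ^ r = (1 : Matrix ι ι F))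
    (hg : g⁻¹ * x * g ∈ Cfsg.Geo.tensorProductSubgroup n₁ n₂ e P) [DecidableEq E] (z : E)
    (hz : ¬ n₁ ∣ (eig E (x : Matrix ι ι F)).count z)
    (hw : n₁ * n₂ < (eig E (x : Matrix ι ι F)).count 1 + n₂ * (orderOf (q : ZMod r) - 1)) : False := by
  have hrp : r.Prime := Fact.out
  obtain ⟨α, β, a, b, hab, hs, hα, hβ, heig, hfα, hfβ⟩ := exists_eig_of_conj E hq h₁ h₂ e P g x hr (s := 1)
    (by rw [one_smul]; exact hx) hg
  rw [heig] at hz hw
  have ha : a ≠ 0 := by rintro rfl; rw [zero_mul] at hab; exact hs hab.symm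
  have hb : b ≠ 0 := by rintro rfl; rw [mul_zero] at hab; exact hs hab.symm
  have hr0 : r ≠ 0 := hrp.ne_zero
  have hβ0 : ∀ l, β l ≠ 0 := by
    intro l hl
    have := hβ l
    rw [hl, zero_pow hr0] at this
    exact hb ((algebraMap F E).injective (by rw [← this, map_zero]))
  obtain ⟨t, ht, ht0⟩ := exists_root hq h1 a ha
  have htE : algebraMap F E t ≠ 0 := by
    intro h
    exact ht0 ((algebraMap F E).injective (by rw [h, map_zero]))
  by_cases hc : ∀ k, α k = algebraMap F E t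
  · exact hz (dvd_count_of_const α β _ hc z)
  · push Not at hc
    obtain ⟨k, hk⟩ := hc
    -- `ζ = α k / t` is a primitive `r`-th root of unity
    let ζ : E := α k / algebraMap F E t
    have hζ1 : ζ ≠ 1 := by
      intro h
      exact hk ((div_eq_one_iff_eq htE).1 h)
    have hζr : ζ ^ r = 1 := by
      rw [div_pow, hα, ← map_pow, ht, div_self]
      intro h
      exact ha ((algebraMap F E).injective (by rw [h, map_zero]))
    have hζ : IsPrimitiveRoot ζ r := by
      have h2 : orderOf ζ = r := orderOf_eq_prime hζr hζ1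
      rw [← h2]
      exact IsPrimitiveRoot.orderOf ζ
    have htq : (algebraMap F E t) ^ q = algebraMap F E t := by
      rw [← map_pow, ← hq, FiniteField.pow_card]
    -- all `t ζ ^ (q ^ j)` are values of `α`
    have hval : ∀ j : ℕ, ∃ k', α k' = algebraMap F E t * ζ ^ (q ^ j) := by
      intro j
      induction j with
      | zero => exact ⟨k, by rw [pow_zero, pow_one, mul_div_cancel₀ _ htE]⟩
      | succ j ih =>
        obtain ⟨k', hk'⟩ := ih
        have hmem : (α k') ^ q ∈ Finset.univ.val.map α := by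
          rw [← hfα]
          exact Multiset.mem_map_of_mem _ (Multiset.mem_map_of_mem _ (Finset.mem_univ_val k'))
        obtain ⟨k'', -, hk''⟩ := Multiset.mem_map.1 hmem
        refine ⟨k'', ?_⟩
        rw [hk'', hk', mul_pow, htq, pow_succ, pow_mul]
    let S : Finset E := (Finset.range (orderOf (q : ZMod r))).image (fun j => algebraMap F E t * ζ ^ (q ^ j))
    have hS : S.card = orderOf (q : ZMod r) := by
      rw [Finset.card_image_of_injOn, Finset.card_range]
      intro j hj l hl hjl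
      simp only [Finset.coe_range, Set.mem_Iio] at hj hl
      exact pow_inj_of_prim hζ hj hl (mul_left_cancel₀ htE hjl)
    have := count_add_le α β hβ0 S (by
      intro y hy
      obtain ⟨j, -, rfl⟩ := Finset.mem_image.1 hy
      exact hval j) 1
    rw [hS] at this
    omega

end tens

section unip

variable {ι : Type} [Fintype ι] [DecidableEq ι] {F : Type*} [Field F]

/-- If `A ⊗ B - 1` has rank less than `n₂`, then `A` is scalar. -/
theorem scalar_of_rank_lt {n₁ n₂ : ℕ} (A : Matrix (Fin n₁) (Fin n₁) F) (B : Matrix (Fin n₂) (Fin n₂) F)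
    (hrank : (A ⊗ₖ B - 1).rank < n₂) : ∀ u : Fin n₁ → F, ∃ c : F, A *ᵥ u = c • u := by
  intro u
  by_cases hu : u = 0
  · exact ⟨0, by rw [hu]; simp⟩
  -- the linear map `w ↦ (A ⊗ B - 1) (u ⊗ w)` is not injective
  let L : (Fin n₂ → F) →ₗ[F] (Fin n₁ × Fin n₂ → F) :=
    { toFun := fun w p => u p.1 * w p.2
      map_add' := by intro x y; ext p; simp [mul_add]
      map_smul' := by intro c x; ext p; simp; ring }
  let M : (Fin n₂ → F) →ₗ[F] (Fin n₁ × Fin n₂ → F) := (Matrix.toLin' (A ⊗ₖ B - 1)).comp L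
  have hker : LinearMap.ker M ≠ ⊥ := by
    intro h
    have h1 := LinearMap.finrank_range_add_finrank_ker M
    rw [h, finrank_bot, add_zero, Module.finrank_fintype_fun_eq_card, Fintype.card_fin] at h1
    have h2 : Module.finrank F (LinearMap.range M) ≤ (A ⊗ₖ B - 1).rank := by
      rw [Matrix.rank, ← Matrix.toLin'_apply']
      exact Submodule.finrank_mono (LinearMap.range_comp_le_range _ _)
    omega
  obtain ⟨w, hw, hw0⟩ := Submodule.exists_mem_ne_zero_of_ne_bot hker
  rw [LinearMap.mem_ker] at hw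
  have hw1 : ∀ i j, (A *ᵥ u) i * (B *ᵥ w) j = u i * w j := by
    intro i j
    have h1 := congrFun hw (i, j)
    change ((A ⊗ₖ B - 1) *ᵥ (fun p : Fin n₁ × Fin n₂ => u p.1 * w p.2)) (i, j) = 0 at h1
    rw [Matrix.sub_mulVec, Matrix.one_mulVec, Pi.sub_apply, sub_eq_zero] at h1
    rw [← h1]
    simp only [Matrix.mulVec, dotProduct, Matrix.kroneckerMap_apply]
    rw [Finset.sum_mul_sum, Fintype.sum_prod_type]
    refine Finset.sum_congr rfl fun k _ => Finset.sum_congr rfl fun l _ => ?_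
    ring
  obtain ⟨j, hj⟩ : ∃ j, w j ≠ 0 := by
    by_contra hcon
    push Not at hcon
    exact hw0 (funext hcon)
  obtain ⟨i, hi⟩ : ∃ i, u i ≠ 0 := by
    by_contra hcon
    push Not at hcon
    exact hu (funext hcon)
  have hBj : (B *ᵥ w) j ≠ 0 := by
    intro h
    have := hw1 i j
    rw [h, mul_zero] at this
    exact mul_ne_zero hi hj this.symm
  refine ⟨w j / (B *ᵥ w) j, ?_⟩
  ext i'
  rw [Pi.smul_apply, smul_eq_mul, div_mul_eq_mul_div, eq_div_iff hBj, hw1 i' j, mul_comm]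

/-- A matrix having every vector as an eigenvector is scalar. -/
theorem scalar_of_forall {κ : Type*} [Fintype κ] [DecidableEq κ] (A : Matrix κ κ F)
    (h : ∀ u : κ → F, ∃ c : F, A *ᵥ u = c • u) : ∃ c : F, A = c • (1 : Matrix κ κ F) := by
  rcases isEmpty_or_nonempty κ with hκ | ⟨⟨k0⟩⟩
  · exact ⟨0, by ext i; exact hκ.elim i⟩
  have hoff : ∀ i j, i ≠ j → A i j = 0 := by
    intro i j hij
    obtain ⟨c, hc⟩ := h (Pi.single j 1)
    have := congrFun hc i
    simpa [Matrix.mulVec_single, Pi.single_apply, hij] using this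
  have hdiag : ∀ i j, A i i = A j j := by
    intro i j
    by_cases hij : i = j
    · rw [hij]
    obtain ⟨c, hc⟩ := h (Pi.single i 1 + Pi.single j 1)
    have h1 := congrFun hc i
    have h2 := congrFun hc j
    rw [Matrix.mulVec_add] at h1 h2
    simp only [Matrix.mulVec_single, Pi.add_apply, Pi.smul_apply, Pi.single_apply, Matrix.col_apply,
      MulOpposite.op_one, one_smul, hij, Ne.symm hij, smul_eq_mul, if_true, if_false, add_zero, zero_add, mul_one,
      hoff i j hij, hoff j i (Ne.symm hij)] at h1 h2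
    rw [h1, h2]
  refine ⟨A k0 k0, ?_⟩
  ext i j
  rw [Matrix.smul_apply, Matrix.one_apply]
  by_cases hij : i = j
  · rw [if_pos hij, ← hij, hdiag i k0]; simp
  · rw [if_neg hij, hoff i j hij]; simp

/-- **Transvections do not stabilise tensor decompositions**: if `x - 1` has rank one and `2 ≤ n₁, n₂`, then `x` is not
conjugate into the stabiliser of a tensor decomposition. -/
theorem false_of_conj_rank_one {n₁ n₂ : ℕ} (h₁ : 2 ≤ n₁) (h₂ : 2 ≤ n₂)
    (e : ι ≃ Fin n₁ × Fin n₂) (P g x : GL ι F) (hx : ((x : Matrix ι ι F) - 1).rank = 1)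
    (hg : g⁻¹ * x * g ∈ Cfsg.Geo.tensorProductSubgroup n₁ n₂ e P) : False := by
  obtain ⟨A, B, hAB⟩ := (mem_tensor_iff e P _).1 hg
  -- `A ⊗ B - 1` has rank one
  have hrank : ((A : Matrix (Fin n₁) (Fin n₁) F) ⊗ₖ (B : Matrix (Fin n₂) (Fin n₂) F) - 1).rank = 1 := by
    rw [← hx]
    have h3 : ((g⁻¹ * x * g : GL ι F) : Matrix ι ι F) - 1 =
        ((g⁻¹ : GL ι F) : Matrix ι ι F) * ((x : Matrix ι ι F) - 1) * (g : Matrix ι ι F) := by
      rw [Matrix.mul_sub, Matrix.sub_mul, Matrix.mul_one, ← Units.val_mul g⁻¹ g, inv_mul_cancel, Units.val_one,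
        Units.val_mul, Units.val_mul]
    have h4 : ((g⁻¹ * x * g : GL ι F) : Matrix ι ι F) - 1 = (P : Matrix ι ι F) *
        Matrix.reindex e.symm e.symm ((A : Matrix (Fin n₁) (Fin n₁) F) ⊗ₖ (B : Matrix (Fin n₂) (Fin n₂) F) - 1) *
        ((P⁻¹ : GL ι F) : Matrix ι ι F) := by
      rw [hAB]
      have h5 : Matrix.reindex e.symm e.symm ((A : Matrix (Fin n₁) (Fin n₁) F) ⊗ₖ (B : Matrix (Fin n₂) (Fin n₂) F) - 1) =
        Matrix.reindex e.symm e.symm ((A : Matrix (Fin n₁) (Fin n₁) F) ⊗ₖ (B : Matrix (Fin n₂) (Fin n₂) F)) - 1 := by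
        have : ∀ M : Matrix (Fin n₁ × Fin n₂) (Fin n₁ × Fin n₂) F,
          Matrix.reindex e.symm e.symm M = Matrix.reindexAlgEquiv F F e.symm M := fun _ => rfl
        rw [this, this, map_sub, map_one]
      rw [h5, Matrix.mul_sub, Matrix.sub_mul, Matrix.mul_one, ← Units.val_mul P P⁻¹, mul_inv_cancel, Units.val_one]
    have h6 : (((g⁻¹ : GL ι F) : Matrix ι ι F) * ((x : Matrix ι ι F) - 1) * (g : Matrix ι ι F)).rank =
        ((x : Matrix ι ι F) - 1).rank := by
      rw [Matrix.rank_mul_eq_left_of_isUnit_det _ _ ((Matrix.isUnit_iff_isUnit_det _).1 g.isUnit),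
        Matrix.rank_mul_eq_right_of_isUnit_det _ _ ((Matrix.isUnit_iff_isUnit_det _).1 (g⁻¹).isUnit)]
    rw [← h6, ← h3, h4, Matrix.rank_mul_eq_left_of_isUnit_det _ _ ((Matrix.isUnit_iff_isUnit_det _).1 (P⁻¹).isUnit),
      Matrix.rank_mul_eq_right_of_isUnit_det _ _ ((Matrix.isUnit_iff_isUnit_det _).1 P.isUnit), Matrix.rank_reindex]
  obtain ⟨a, ha⟩ := scalar_of_forall _ (scalar_of_rank_lt (A : Matrix (Fin n₁) (Fin n₁) F)
    (B : Matrix (Fin n₂) (Fin n₂) F) (by rw [hrank]; omega))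
  -- the other factor: `B ⊗ A`
  have hrank' : ((B : Matrix (Fin n₂) (Fin n₂) F) ⊗ₖ (A : Matrix (Fin n₁) (Fin n₁) F) - 1).rank = 1 := by
    rw [← hrank, ← Matrix.rank_reindex (Equiv.prodComm (Fin n₂) (Fin n₁)) (Equiv.prodComm (Fin n₂) (Fin n₁))]
    congr 1
    ext ⟨i, k⟩ ⟨j, l⟩
    simp [Matrix.kroneckerMap_apply, Matrix.one_apply, mul_comm, and_comm]
  obtain ⟨b, hb⟩ := scalar_of_forall _ (scalar_of_rank_lt (B : Matrix (Fin n₂) (Fin n₂) F)
    (A : Matrix (Fin n₁) (Fin n₁) F) (by rw [hrank']; omega))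
  have hsc : (A : Matrix (Fin n₁) (Fin n₁) F) ⊗ₖ (B : Matrix (Fin n₂) (Fin n₂) F) - 1 =
      (a * b - 1) • (1 : Matrix (Fin n₁ × Fin n₂) (Fin n₁ × Fin n₂) F) := by
    rw [ha, hb, Matrix.smul_kronecker, Matrix.kronecker_smul, Matrix.one_kronecker_one, smul_smul, sub_smul, one_smul]
  rw [hsc] at hrank
  by_cases hab : a * b - 1 = 0
  · rw [hab, zero_smul, Matrix.rank_zero] at hrank
    omega
  · have h7 : ((a * b - 1) • (1 : Matrix (Fin n₁ × Fin n₂) (Fin n₁ × Fin n₂) F)).rank =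
        Fintype.card (Fin n₁ × Fin n₂) := by
      apply Matrix.rank_of_isUnit
      rw [Matrix.isUnit_iff_isUnit_det, Matrix.det_smul, Matrix.det_one, mul_one]
      exact (isUnit_iff_ne_zero.2 hab).pow _
    rw [h7, Fintype.card_prod, Fintype.card_fin, Fintype.card_fin] at hrank
    nlinarith

end unip

end Cfsg.Agent.H956.TensorElt
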